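import Mathlib

set_option autoImplicit false

namespace Cfsg.Agent.Lib.Helper5.MinIdx

theorem abs_sumx {Q : Type*} [Group Q] [Fintype Q] {Ω : Type*} [Finite Ω] (σ : Q →* Equiv.Perm Ω)
    (f : ℕ) (hf : ∀ x : Q, x ≠ 1 → Nat.card {ω // σ x ω = ω} = f) :
    ∑ x : Q, Nat.card {ω : Ω // σ x ω = ω} = Nat.card Ω + (Nat.card Q - 1) * f := by
  classical
  rw [← Finset.add_sum_erase _ _ (Finset.mem_univ (1:Q))]
  congr 1
  · exact Nat.card_congr (Equiv.subtypeUnivEquiv (fun ω => by simp))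
  · rw [Finset.sum_congr rfl (fun x hx => hf x (Finset.ne_of_mem_erase hx)), Finset.sum_const,
      Finset.card_erase_of_mem (Finset.mem_univ _), Finset.card_univ, Nat.card_eq_fintype_card,
      smul_eq_mul]

/-- RUNG ABS (1). -/
theorem abs_sum {Q : Type*} [Group Q] [Finite Q] {Ω : Type*} [Fintype Ω] (σ : Q →* Equiv.Perm Ω)
    (f : ℕ) (hf : ∀ x : Q, x ≠ 1 → Nat.card {ω // σ x ω = ω} = f) :
    ∑ ω : Ω, Nat.card {x : Q // σ x ω = ω} = Nat.card Ω + (Nat.card Q - 1) * f := by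
  classical
  haveI := Fintype.ofFinite Q
  have e1 : ∀ ω : Ω, Nat.card {x : Q // σ x ω = ω} = ∑ x : Q, if σ x ω = ω then 1 else 0 := by
    intro ω
    rw [Nat.card_eq_fintype_card, Fintype.card_subtype, Finset.card_filter]
  have e2 : ∀ x : Q, Nat.card {ω : Ω // σ x ω = ω} = ∑ ω : Ω, if σ x ω = ω then 1 else 0 := by
    intro x
    rw [Nat.card_eq_fintype_card, Fintype.card_subtype, Finset.card_filter]
  rw [← abs_sumx σ f hf]
  simp_rw [e1, e2]
  rw [Finset.sum_comm]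

/-- RUNG ABS (2): Burnside. -/
theorem abs_dvd {Q : Type*} [Group Q] [Finite Q] {Ω : Type*} [Finite Ω] (σ : Q →* Equiv.Perm Ω)
    (f : ℕ) (hf : ∀ x : Q, x ≠ 1 → Nat.card {ω // σ x ω = ω} = f) :
    Nat.card Q ∣ Nat.card Ω + (Nat.card Q - 1) * f := by
  classical
  haveI := Fintype.ofFinite Q
  haveI := Fintype.ofFinite Ω
  letI : MulAction Q Ω := MulAction.compHom Ω σ
  have h := MulAction.sum_card_fixedBy_eq_card_orbits_mul_card_group Q Ω
  rw [← abs_sumx σ f hf]
  have e : ∀ x : Q, Nat.card {ω : Ω // σ x ω = ω} = Fintype.card (MulAction.fixedBy Ω x) := by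
    intro x
    rw [Nat.card_eq_fintype_card]
    exact Fintype.card_congr (Equiv.subtypeEquivRight (fun ω => Iff.rfl))
  simp_rw [e]
  rw [h, Nat.card_eq_fintype_card]
  exact Dvd.intro_left _ rfl

/-- RUNG ABS (3). -/
theorem abs_sup {Q : Type*} [CommGroup Q] [Finite Q] {Ω : Type*} [Finite Ω]
    (σ : Q →* Equiv.Perm Ω) (f : ℕ) (hf : ∀ x : Q, x ≠ 1 → Nat.card {ω // σ x ω = ω} = f)
    (hm : Nat.card Ω = f + Nat.card Q) {ω ω' : Ω} (h1 : ∀ x, σ x ω ≠ ω') :
    ∀ x : Q, ∃ y z : Q, x = y * z ∧ σ y ω = ω ∧ σ z ω' = ω' := by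
  classical
  haveI := Fintype.ofFinite Ω
  letI : MulAction Q Ω := MulAction.compHom Ω σ
  have hsm : ∀ (x : Q) (η : Ω), x • η = σ x η := fun _ _ => rfl
  set Y : Subgroup Q := MulAction.stabilizer Q ω ⊔ MulAction.stabilizer Q ω' with hY
  suffices hT : Y = ⊤ by
    intro x
    have hx : x ∈ Y := hT ▸ Subgroup.mem_top x
    obtain ⟨y, hy, z, hz, rfl⟩ := Subgroup.mem_sup.1 hx
    exact ⟨y, z, rfl, hy, hz⟩
  have hA := abs_sum σ f hf
  have hB := abs_sum (σ.comp Y.subtype) f (fun x hx => hf x.1 (by simpa using hx))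
  set a : Ω → ℕ := fun η => Nat.card {x : Q // σ x η = η} with ha
  set b : Ω → ℕ := fun η => Nat.card {x : Y // (σ.comp Y.subtype) x η = η} with hb
  -- general inequality
  have hab : ∀ η, a η ≤ Y.index * b η := by
    intro η
    set R := MulAction.stabilizer Q η with hR
    have e1 : a η = Nat.card R := Nat.card_congr (Equiv.subtypeEquivRight (fun x => Iff.rfl))
    have e2 : b η = Nat.card (Y.subgroupOf R) := by
      refine Nat.card_congr ⟨fun x => ⟨⟨x.1.1, x.2⟩, x.1.2⟩, fun x => ⟨⟨x.1.1, x.2⟩, x.1.2⟩,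
        fun x => rfl, fun x => rfl⟩
    have e3 : Nat.card (Y.subgroupOf R) * Y.relIndex R = Nat.card R :=
      Subgroup.card_mul_index _
    have e4 : Y.relIndex R ≤ Y.index := by
      rw [← Subgroup.relIndex_top_right]
      exact Subgroup.relIndex_le_of_le_right le_top
        (by rw [Subgroup.relIndex_top_right]; exact Subgroup.index_ne_zero_of_finite)
    rw [e1, e2, ← e3, mul_comm]
    exact Nat.mul_le_mul_right _ e4
  -- orbits
  have key : ∀ ζ : Ω, MulAction.stabilizer Q ζ ≤ Y →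
      (∑ η ∈ Finset.univ.filter (fun η => ∃ x : Q, σ x ζ = η), a η = Nat.card Q) ∧
      (∑ η ∈ Finset.univ.filter (fun η => ∃ x : Q, σ x ζ = η), b η = Nat.card Q) := by
    intro ζ hζ
    have hst : ∀ η ∈ Finset.univ.filter (fun η => ∃ x : Q, σ x ζ = η),
        ∀ y : Q, σ y η = η ↔ σ y ζ = ζ := by
      intro η hη y
      obtain ⟨x, rfl⟩ := (Finset.mem_filter.1 hη).2
      have : σ y (σ x ζ) = σ x (σ y ζ) := by
        rw [← Equiv.Perm.mul_apply, ← Equiv.Perm.mul_apply, ← map_mul, ← map_mul, mul_comm]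
      rw [this]
      exact (σ x).injective.eq_iff
    have ea : ∀ η ∈ Finset.univ.filter (fun η => ∃ x : Q, σ x ζ = η), a η = a ζ := by
      intro η hη
      exact Nat.card_congr (Equiv.subtypeEquivRight (hst η hη))
    have eb : ∀ η ∈ Finset.univ.filter (fun η => ∃ x : Q, σ x ζ = η), b η = a ζ := by
      intro η hη
      refine Nat.card_congr ⟨fun x => ⟨x.1.1, (hst η hη _).1 x.2⟩,
        fun x => ⟨⟨x.1, hζ x.2⟩, (hst η hη _).2 x.2⟩, fun x => rfl, fun x => rfl⟩
    have hc : (Finset.univ.filter (fun η => ∃ x : Q, σ x ζ = η)).card * a ζ = Nat.card Q := by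
      have e1 : a ζ = Nat.card (MulAction.stabilizer Q ζ) :=
        Nat.card_congr (Equiv.subtypeEquivRight (fun x => Iff.rfl))
      have e2 : (Finset.univ.filter (fun η => ∃ x : Q, σ x ζ = η)).card
          = (MulAction.stabilizer Q ζ).index := by
        rw [MulAction.index_stabilizer, ← Set.ncard_coe_finset]
        congr 1
        ext η
        simp [MulAction.mem_orbit_iff, hsm]
      rw [e1, e2, Subgroup.index_mul_card]
    constructor
    · rw [Finset.sum_congr rfl ea, Finset.sum_const, smul_eq_mul, hc]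
    · rw [Finset.sum_congr rfl eb, Finset.sum_const, smul_eq_mul, hc]
  obtain ⟨kA, kB⟩ := key ω le_sup_left
  obtain ⟨kA', kB'⟩ := key ω' le_sup_right
  set S := Finset.univ.filter (fun η => ∃ x : Q, σ x ω = η) with hS
  set S' := Finset.univ.filter (fun η => ∃ x : Q, σ x ω' = η) with hS'
  have hdis : Disjoint S S' := by
    rw [Finset.disjoint_left]
    intro η h h'
    obtain ⟨x, hx⟩ := (Finset.mem_filter.1 h).2
    obtain ⟨x', hx'⟩ := (Finset.mem_filter.1 h').2
    apply h1 (x'⁻¹ * x)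
    rw [map_mul, Equiv.Perm.mul_apply, hx, ← hx', ← Equiv.Perm.mul_apply, ← map_mul,
      inv_mul_cancel, map_one, Equiv.Perm.one_apply]
  have sA : ∑ η, a η = Nat.card Q + Nat.card Q + ∑ η ∈ (S ∪ S')ᶜ, a η := by
    rw [← Finset.sum_add_sum_compl (S ∪ S'), Finset.sum_union hdis, kA, kA']
  have sB : ∑ η, b η = Nat.card Q + Nat.card Q + ∑ η ∈ (S ∪ S')ᶜ, b η := by
    rw [← Finset.sum_add_sum_compl (S ∪ S'), Finset.sum_union hdis, kB, kB']
  have sAB : ∑ η ∈ (S ∪ S')ᶜ, a η ≤ Y.index * ∑ η ∈ (S ∪ S')ᶜ, b η := by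
    rw [Finset.mul_sum]
    exact Finset.sum_le_sum (fun η _ => hab η)
  have hiy : Y.index * Nat.card Y = Nat.card Q := Subgroup.index_mul_card Y
  have hi0 : 0 < Y.index := Nat.pos_of_ne_zero Subgroup.index_ne_zero_of_finite
  have hy0 : 0 < Nat.card Y := Nat.card_pos
  have hQ0 : 0 < Nat.card Q := Nat.card_pos
  rw [Subgroup.index_eq_one.symm]
  generalize ∑ η ∈ (S ∪ S')ᶜ, a η = α at *
  generalize ∑ η ∈ (S ∪ S')ᶜ, b η = β at *
  rw [sA, hm] at hA
  rw [sB, hm] at hB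
  generalize Y.index = i at *
  generalize Nat.card Y = y at *
  generalize Nat.card Q = c at *
  obtain ⟨c', rfl⟩ : ∃ c', c = c' + 1 := ⟨c - 1, by omega⟩
  obtain ⟨y', rfl⟩ : ∃ y', y = y' + 1 := ⟨y - 1, by omega⟩
  simp only [Nat.add_sub_cancel] at hA hB
  have h2 : i * (i * (y' + 1)) ≤ 1 * (i * (y' + 1)) := by
    nlinarith
  have := Nat.le_of_mul_le_mul_right h2 (by positivity)
  omega

end Cfsg.Agent.Lib.Helper5.MinIdx
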