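import Mathlib
import Cfsg.Agent.Lib.Helper5.MinIdx.Lin

set_option autoImplicit false

namespace Cfsg.Agent.Lib.Helper5.MinIdx

open Matrix
open Cfsg.Agent.Lib.Helper18.AutPSL

variable {ι : Type*} [Fintype ι] [DecidableEq ι] {F : Type*} [Field F] {Ω : Type*}

/-- the map `(r, c) ↦ r + c k` from `R × F` to the hyperplane. -/
def laMap {φ k : ι → F} (R : AddSubgroup (ι → F)) (hR : ∀ a ∈ R, φ ⬝ᵥ a = 0) (hk : φ ⬝ᵥ k = 0) :
    R × F → kr φ := fun p => ⟨p.1 + p.2 • k, by
      rw [mem_kr, dotProduct_add, hR _ p.1.2, dotProduct_smul, hk, smul_zero, add_zero]⟩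

theorem laMap_surjective {φ k : ι → F} (R : AddSubgroup (ι → F)) (hR : ∀ a ∈ R, φ ⬝ᵥ a = 0)
    (hk : φ ⬝ᵥ k = 0) (h : ∀ x, φ ⬝ᵥ x = 0 → ∃ r ∈ R, ∃ c : F, x = r + c • k) :
    Function.Surjective (laMap R hR hk) := by
  rintro ⟨x, hx⟩
  obtain ⟨r, hr, c, rfl⟩ := h x hx
  exact ⟨(⟨r, hr⟩, c), rfl⟩

/-- RUNG LA. -/
theorem la_main [Finite F] (h3 : 3 ≤ Fintype.card ι) {φ : ι → F} (hφ : φ ≠ 0)
    (R : AddSubgroup (ι → F)) (hR : ∀ a ∈ R, φ ⬝ᵥ a = 0) (hne : ∃ a, φ ⬝ᵥ a = 0 ∧ a ∉ R)
    (hst : ∀ k ψ : ι → F, φ ⬝ᵥ k = 0 → ψ ⬝ᵥ k = 0 →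
      (∀ a ∈ R, a + (ψ ⬝ᵥ a) • k ∈ R) ∨ (∀ x, φ ⬝ᵥ x = 0 → ∃ r ∈ R, ∃ c : F, x = r + c • k)) :
    (∀ a ∈ R, a = 0) ∨ (Nat.card F ^ (Fintype.card ι - 1) ≤ Nat.card F * Nat.card R ∧
      (Nat.card F ^ (Fintype.card ι - 1) = Nat.card F * Nat.card R →
        ∀ (c : F), ∀ a ∈ R, c • a ∈ R)) := by
  classical
  have hQ := card_kr hφ
  have hcard : Nat.card (R × F) = Nat.card F * Nat.card R := by
    rw [Nat.card_prod, mul_comm]
  by_cases hlt : Nat.card F * Nat.card R < Nat.card F ^ (Fintype.card ι - 1)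
  · left
    have alt1 : ∀ k ψ : ι → F, φ ⬝ᵥ k = 0 → ψ ⬝ᵥ k = 0 → ∀ a ∈ R, (ψ ⬝ᵥ a) • k ∈ R := by
      intro k ψ hk hψ a ha
      rcases hst k ψ hk hψ with h | h
      · have := R.sub_mem (h a ha) ha
        simpa using this
      · exfalso
        have := Nat.card_le_card_of_surjective _ (laMap_surjective R hR hk h)
        rw [hQ, hcard] at this
        omega
    by_contra hcon
    obtain ⟨a, ha, ha0⟩ : ∃ a ∈ R, a ≠ 0 := by
      by_contra h
      apply hcon
      intro a ha
      by_contra h0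
      exact h ⟨a, ha, h0⟩
    have hk_mem : ∀ k : ι → F, φ ⬝ᵥ k = 0 → (∀ c : F, k ≠ c • a) → k ∈ R := by
      intro k hk hka
      have h' : ∀ c : F, a ≠ c • k := by
        intro c hc
        by_cases hc0 : c = 0
        · apply ha0
          rw [hc, hc0, zero_smul]
        · apply hka c⁻¹
          rw [hc, smul_smul, inv_mul_cancel₀ hc0, one_smul]
      obtain ⟨ψ, h1, h2⟩ := exists_dual h' 1
      have := alt1 k ψ hk h1 a ha
      rwa [h2, one_smul] at this
    obtain ⟨k0, hk0, hk0'⟩ : ∃ k0 : ι → F, φ ⬝ᵥ k0 = 0 ∧ ∀ c : F, k0 ≠ c • a := by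
      by_contra h
      have hle : kr φ ≤ Submodule.span F {a} := by
        intro x hx
        by_contra hx'
        apply h
        refine ⟨x, hx, ?_⟩
        intro c hc
        apply hx'
        rw [hc]
        exact Submodule.smul_mem _ _ (Submodule.mem_span_singleton_self a)
      have h1 := Submodule.finrank_mono hle
      rw [finrank_span_singleton ha0] at h1
      have h2 := finrank_kr hφ
      omega
    obtain ⟨x, hx, hxR⟩ := hne
    apply hxR
    by_cases hxa : ∀ c : F, x ≠ c • a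
    · exact hk_mem x hx hxa
    · obtain ⟨c, hc⟩ : ∃ c : F, x = c • a := by
        by_contra h
        apply hxa
        intro c hc
        exact h ⟨c, hc⟩
      have h1 : x + k0 ∈ R := by
        apply hk_mem
        · rw [dotProduct_add, hx, hk0, add_zero]
        · intro d hd
          apply hk0' (d - c)
          rw [sub_smul, ← hd, ← hc]
          abel
      have h2 : k0 ∈ R := hk_mem k0 hk0 hk0'
      have := R.sub_mem h1 h2
      simpa using this
  · right
    refine ⟨not_lt.1 hlt, ?_⟩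
    intro heq c k hkR
    by_cases hk0 : k = 0
    · rw [hk0, smul_zero]; exact R.zero_mem
    have hk := hR k hkR
    have alt1 : ∀ ψ : ι → F, ψ ⬝ᵥ k = 0 → ∀ a ∈ R, a + (ψ ⬝ᵥ a) • k ∈ R := by
      intro ψ hψ
      rcases hst k ψ hk hψ with h | h
      · exact h
      · exfalso
        have hs := laMap_surjective R hR hk h
        have hb := hs.bijective_of_nat_card_le (by rw [hQ, hcard, heq])
        have e : laMap R hR hk (⟨k, hkR⟩, 0) = laMap R hR hk (0, 1) := by
          apply Subtype.ext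
          simp [laMap]
        have := congrArg Prod.snd (hb.1 e)
        simp at this
    by_cases hex : ∃ a ∈ R, ∀ d : F, a ≠ d • k
    · obtain ⟨a, ha, had⟩ := hex
      obtain ⟨ψ, h1, h2⟩ := exists_dual had c
      have h4 := alt1 ψ h1 a ha
      rw [h2] at h4
      have := R.sub_mem h4 ha
      simpa using this
    · have hsub : (R : Set (ι → F)) ⊆ Set.range (fun d : F => d • k) := by
        intro a ha
        by_contra h
        apply hex
        refine ⟨a, ha, ?_⟩
        intro d hd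
        exact h ⟨d, hd.symm⟩
      have hScard : (Set.range (fun d : F => d • k)).ncard ≤ Nat.card F := by
        rw [← Set.image_univ, ← Set.ncard_univ]
        exact Set.ncard_image_le (Set.toFinite _)
      have hRcard : Nat.card F ≤ (R : Set (ι → F)).ncard := by
        have h1 : Nat.card F ^ 2 ≤ Nat.card F ^ (Fintype.card ι - 1) :=
          Nat.pow_le_pow_right Nat.card_pos (by omega)
        rw [heq, pow_two] at h1
        have h2 := Nat.le_of_mul_le_mul_left h1 Nat.card_pos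
        exact h2
      have hS := Set.eq_of_subset_of_ncard_le hsub (hScard.trans hRcard) (Set.toFinite _)
      have h5 : c • k ∈ Set.range (fun d : F => d • k) := ⟨c, rfl⟩
      rw [← hS] at h5
      exact h5

end Cfsg.Agent.Lib.Helper5.MinIdx
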