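import Mathlib
import Cfsg.Agent.Lib.Helper5.MinIdx.Abs
import Cfsg.Agent.Lib.Helper5.MinIdx.Lin

set_option autoImplicit false

namespace Cfsg.Agent.Lib.Helper5.MinIdx

open Matrix
open Cfsg.Agent.Lib.Helper18.AutPSL

variable {ι : Type*} [Fintype ι] [DecidableEq ι] {F : Type*} [Field F] {Ω : Type*}

/-- the action of the group of transvections with axis `φ`. -/
noncomputable def starσ (ρ : SpecialLinearGroup ι F →* Equiv.Perm Ω) (φ : ι → F) :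
    Multiplicative (kr φ) →* Equiv.Perm Ω := ρ.comp (trHom φ)

theorem starσ_apply (ρ : SpecialLinearGroup ι F →* Equiv.Perm Ω) (φ : ι → F)
    (x : Multiplicative (kr φ)) : starσ ρ φ x = ρ (tr (Multiplicative.toAdd x).1 φ) := rfl

theorem starσ_ofAdd (ρ : SpecialLinearGroup ι F →* Equiv.Perm Ω) (φ : ι → F) {a : ι → F}
    (ha : φ ⬝ᵥ a = 0) : starσ ρ φ (Multiplicative.ofAdd (⟨a, ha⟩ : kr φ)) = ρ (tr a φ) := rfl

theorem star_hf {ρ : SpecialLinearGroup ι F →* Equiv.Perm Ω} {f : ℕ}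
    (hy : Hyp ρ f) {φ : ι → F} (hφ : φ ≠ 0) (x : Multiplicative (kr φ)) (hx : x ≠ 1) :
    Nat.card {ω // starσ ρ φ x ω = ω} = f := by
  apply hy.fix _ φ _ hφ (Multiplicative.toAdd x).2
  intro h
  apply hx
  have : Multiplicative.toAdd x = 0 := Subtype.ext h
  exact this

theorem star_hm [Finite F] {ρ : SpecialLinearGroup ι F →* Equiv.Perm Ω} {f : ℕ}
    (hy : Hyp ρ f) {φ : ι → F} (hφ : φ ≠ 0) :
    Nat.card Ω = f + Nat.card (Multiplicative (kr φ)) := by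
  rw [hy.card, ← card_kr hφ]
  rfl

theorem star_conj {φ k ψ : ι → F} (hk : φ ⬝ᵥ k = 0) (hψ : ψ ⬝ᵥ k = 0) (a : ι → F) :
    tr k ψ * tr a φ * (tr k ψ)⁻¹ = tr (a + (ψ ⬝ᵥ a) • k) φ := by
  rw [conj_tr, tr_mulVec hψ, ← tr_neg_right, vecMul_tr (by rw [neg_dotProduct, hψ, neg_zero]), hk,
    zero_smul, add_zero]

theorem star_conj' {φ k ψ : ι → F} (hk : φ ⬝ᵥ k = 0) (hψ : ψ ⬝ᵥ k = 0) (a : ι → F) :
    (tr k ψ)⁻¹ * tr a φ * tr k ψ = tr (a - (ψ ⬝ᵥ a) • k) φ := by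
  have h := star_conj (φ := φ) (k := k) (ψ := -ψ) hk (by rw [neg_dotProduct, hψ, neg_zero]) a
  rw [tr_neg_right, inv_inv, neg_dotProduct, neg_smul, ← sub_eq_add_neg] at h
  exact h

/-- RUNG STAR (1). -/
theorem star [Finite F] [Finite Ω] {ρ : SpecialLinearGroup ι F →* Equiv.Perm Ω} {f : ℕ}
    (hy : Hyp ρ f) {φ : ι → F} (hφ : φ ≠ 0) (ω : Ω) (k ψ : ι → F) (hk : φ ⬝ᵥ k = 0)
    (hψ : ψ ⬝ᵥ k = 0) :
    (∀ a, φ ⬝ᵥ a = 0 → ρ (tr a φ) ω = ω → ρ (tr (a + (ψ ⬝ᵥ a) • k) φ) ω = ω) ∨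
    (∀ x, φ ⬝ᵥ x = 0 → ∃ r, φ ⬝ᵥ r = 0 ∧ ρ (tr r φ) ω = ω ∧ ∃ c : F, x = r + c • k) := by
  by_cases hc : ∃ c : Multiplicative (kr φ), starσ ρ φ c ω = ρ (tr k ψ) ω
  · left
    obtain ⟨c, hc⟩ := hc
    intro a ha hfix
    have ha' : φ ⬝ᵥ (a + (ψ ⬝ᵥ a) • k) = 0 := by
      rw [dotProduct_add, ha, dotProduct_smul, hk, smul_zero, add_zero]
    have e1 : ρ (tr (a + (ψ ⬝ᵥ a) • k) φ) (ρ (tr k ψ) ω) = ρ (tr k ψ) ω := by
      rw [← star_conj hk hψ, map_mul, map_mul, map_inv]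
      simp only [Equiv.Perm.mul_apply]
      rw [Equiv.Perm.inv_def, Equiv.symm_apply_apply, hfix]
    rw [← hc, ← starσ_ofAdd ρ φ ha', ← Equiv.Perm.mul_apply, ← map_mul, mul_comm, map_mul,
      Equiv.Perm.mul_apply] at e1
    exact (starσ ρ φ c).injective e1
  · right
    push Not at hc
    have hsup := abs_sup (starσ ρ φ) f (star_hf hy hφ) (star_hm hy hφ) hc
    intro x hx
    obtain ⟨y, z, hxyz, hy1, hz1⟩ := hsup (Multiplicative.ofAdd (⟨x, hx⟩ : kr φ))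
    set y' := (Multiplicative.toAdd y).1 with hy'
    set z' := (Multiplicative.toAdd z).1 with hz'
    have hyk : φ ⬝ᵥ y' = 0 := (Multiplicative.toAdd y).2
    have hzk : φ ⬝ᵥ z' = 0 := (Multiplicative.toAdd z).2
    have hxe : x = y' + z' := by
      have := congrArg (fun t : Multiplicative (kr φ) => (Multiplicative.toAdd t).1) hxyz
      exact this
    rw [starσ_apply] at hy1 hz1
    have hr' : φ ⬝ᵥ (z' - (ψ ⬝ᵥ z') • k) = 0 := by
      rw [dotProduct_sub, hzk, dotProduct_smul, hk, smul_zero, sub_zero]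
    have e2 : ρ (tr (z' - (ψ ⬝ᵥ z') • k) φ) ω = ω := by
      rw [← star_conj' hk hψ, map_mul, map_mul, map_inv]
      simp only [Equiv.Perm.mul_apply]
      rw [hz1, Equiv.Perm.inv_def, Equiv.symm_apply_apply]
    refine ⟨y' + (z' - (ψ ⬝ᵥ z') • k), ?_, ?_, ψ ⬝ᵥ z', ?_⟩
    · rw [dotProduct_add, hyk, hr', add_zero]
    · rw [tr_add_left hyk hr', map_mul, Equiv.Perm.mul_apply, e2, hy1]
    · rw [hxe]; abel

/-- RUNG STAR (2). -/
theorem reg_or_fixed [Finite F] [Finite Ω] {ρ : SpecialLinearGroup ι F →* Equiv.Perm Ω} {f : ℕ}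
    (hy : Hyp ρ f) {φ : ι → F} (hφ : φ ≠ 0) {ω : Ω}
    (hω : ∀ a, φ ⬝ᵥ a = 0 → ρ (tr a φ) ω = ω → a = 0) (ω' : Ω) :
    (∃ a, φ ⬝ᵥ a = 0 ∧ ρ (tr a φ) ω = ω') ∨ (∀ a, φ ⬝ᵥ a = 0 → ρ (tr a φ) ω' = ω') := by
  by_cases hc : ∃ c : Multiplicative (kr φ), starσ ρ φ c ω = ω'
  · left
    obtain ⟨c, hc⟩ := hc
    exact ⟨(Multiplicative.toAdd c).1, (Multiplicative.toAdd c).2, hc⟩
  · right
    push Not at hc
    have hsup := abs_sup (starσ ρ φ) f (star_hf hy hφ) (star_hm hy hφ) hc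
    intro x hx
    obtain ⟨y, z, hxyz, hy1, hz1⟩ := hsup (Multiplicative.ofAdd (⟨x, hx⟩ : kr φ))
    have hy0 : (Multiplicative.toAdd y).1 = 0 := hω _ (Multiplicative.toAdd y).2 hy1
    have hxe : x = (Multiplicative.toAdd y).1 + (Multiplicative.toAdd z).1 := by
      have := congrArg (fun t : Multiplicative (kr φ) => (Multiplicative.toAdd t).1) hxyz
      exact this
    rw [hy0, zero_add] at hxe
    rw [hxe]
    exact hz1

/-- RUNG STAR (3). -/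
theorem sum_stab [Finite F] [Fintype Ω] {ρ : SpecialLinearGroup ι F →* Equiv.Perm Ω} {f : ℕ}
    (hy : Hyp ρ f) {φ : ι → F} (hφ : φ ≠ 0) :
    ∑ ω : Ω, Nat.card {a : ι → F // φ ⬝ᵥ a = 0 ∧ ρ (tr a φ) ω = ω} =
      Nat.card F ^ (Fintype.card ι - 1) * (f + 1) := by
  have h := abs_sum (starσ ρ φ) f (star_hf hy hφ)
  have hcard : Nat.card (Multiplicative (kr φ)) = Nat.card F ^ (Fintype.card ι - 1) := by
    rw [← card_kr hφ]; rfl
  have e : ∀ ω : Ω, Nat.card {a : ι → F // φ ⬝ᵥ a = 0 ∧ ρ (tr a φ) ω = ω} =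
      Nat.card {x : Multiplicative (kr φ) // starσ ρ φ x ω = ω} := by
    intro ω
    apply Nat.card_congr
    exact
      { toFun := fun a => ⟨Multiplicative.ofAdd (⟨a.1, a.2.1⟩ : kr φ), a.2.2⟩
        invFun := fun x => ⟨(Multiplicative.toAdd x.1).1, (Multiplicative.toAdd x.1).2, x.2⟩
        left_inv := fun a => rfl
        right_inv := fun x => rfl }
  rw [Finset.sum_congr rfl (fun ω _ => e ω), h, star_hm hy hφ, hcard]
  have hpos : 0 < Nat.card F ^ (Fintype.card ι - 1) := by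
    have : 0 < Nat.card F := Nat.card_pos
    positivity
  obtain ⟨m, hm⟩ : ∃ m, Nat.card F ^ (Fintype.card ι - 1) = m + 1 := ⟨_, (Nat.succ_pred_eq_of_pos hpos).symm⟩
  rw [hm]
  simp only [Nat.add_sub_cancel]
  ring

end Cfsg.Agent.Lib.Helper5.MinIdx
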