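import Mathlib
import Cfsg.Agent.Lib.Helper5.MinIdx.Star
import Cfsg.Agent.Lib.Helper5.MinIdx.LA

set_option autoImplicit false

namespace Cfsg.Agent.Lib.Helper5.MinIdx

open Matrix
open Cfsg.Agent.Lib.Helper18.AutPSL

variable {ι : Type*} [Fintype ι] [DecidableEq ι] {F : Type*} [Field F] {Ω : Type*}

/-- the centres of the transvections with axis `φ` fixing `ω` -/
def dichR (ρ : SpecialLinearGroup ι F →* Equiv.Perm Ω) (φ : ι → F) (ω : Ω) :
    AddSubgroup (ι → F) where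
  carrier := {a | φ ⬝ᵥ a = 0 ∧ ρ (tr a φ) ω = ω}
  zero_mem' := ⟨by simp, by rw [tr_zero_left, map_one]; rfl⟩
  add_mem' := by
    rintro a b ⟨ha, ha'⟩ ⟨hb, hb'⟩
    refine ⟨by rw [dotProduct_add, ha, hb, add_zero], ?_⟩
    rw [tr_add_left ha hb, map_mul, Equiv.Perm.mul_apply, hb', ha']
  neg_mem' := by
    rintro a ⟨ha, ha'⟩
    refine ⟨by rw [dotProduct_neg, ha, neg_zero], ?_⟩
    rw [tr_neg_left, map_inv, Equiv.Perm.inv_eq_iff_eq, ha']

theorem mem_dichR {ρ : SpecialLinearGroup ι F →* Equiv.Perm Ω} {φ : ι → F} {ω : Ω} {a : ι → F} :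
    a ∈ dichR ρ φ ω ↔ φ ⬝ᵥ a = 0 ∧ ρ (tr a φ) ω = ω := Iff.rfl

theorem dich_arith {p f j : ℕ} (hp : 1 ≤ p) (h1 : f + (1 + p * j) ≤ (p + 1) * (f + 1))
    (h2 : f * p + 1 < 1 + p * j) : j = f + 1 := by
  have h3 : p * f < p * j := by nlinarith
  have h4 : f < j := Nat.lt_of_mul_lt_mul_left h3
  have h5 : p * j ≤ p * (f + 1) := by nlinarith
  have h6 : j ≤ f + 1 := Nat.le_of_mul_le_mul_left h5 hp
  omega

/-- RUNG DICH (1). -/
theorem dich_phi [Finite F] [Finite Ω] (h3 : 3 ≤ Fintype.card ι)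
    {ρ : SpecialLinearGroup ι F →* Equiv.Perm Ω} {f : ℕ} (hy : Hyp ρ f) {φ : ι → F} (hφ : φ ≠ 0) :
    CaseI ρ φ ∨ CaseII ρ φ := by
  classical
  have : Fintype Ω := Fintype.ofFinite Ω
  by_cases hcase : ∃ ω, ∀ a, φ ⬝ᵥ a = 0 → ρ (tr a φ) ω = ω → a = 0
  · left
    obtain ⟨ω, hω⟩ := hcase
    intro a b ha hφa hφb η hη
    rcases reg_or_fixed hy hφ hω η with ⟨c, hc, hcη⟩ | h
    · exfalso
      apply ha
      apply hω a hφa
      have hcomm : tr a φ * tr c φ = tr c φ * tr a φ := by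
        rw [← tr_add_left hφa hc, ← tr_add_left hc hφa, add_comm]
      rw [← hcη, ← Equiv.Perm.mul_apply, ← map_mul, hcomm, map_mul, Equiv.Perm.mul_apply] at hη
      exact (ρ (tr c φ)).injective hη
    · exact h b hφb
  · right
    push Not at hcase
    obtain ⟨q, hqdef⟩ : ∃ q, q = Nat.card F := ⟨_, rfl⟩
    obtain ⟨Qn, hQndef⟩ : ∃ Qn, Qn = Nat.card F ^ (Fintype.card ι - 1) := ⟨_, rfl⟩
    have hq2 : 2 ≤ q := hqdef ▸ Finite.one_lt_card
    have hQpos : 0 < Qn := hQndef ▸ pow_pos (by omega) _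
    have hla : ∀ ω, (∃ a, φ ⬝ᵥ a = 0 ∧ a ∉ dichR ρ φ ω) →
        (Qn ≤ q * Nat.card (dichR ρ φ ω) ∧ (Qn = q * Nat.card (dichR ρ φ ω) →
        ∀ (c : F), ∀ a ∈ dichR ρ φ ω, c • a ∈ dichR ρ φ ω)) := by
      intro ω hne
      have hst : ∀ k ψ : ι → F, φ ⬝ᵥ k = 0 → ψ ⬝ᵥ k = 0 →
          (∀ a ∈ dichR ρ φ ω, a + (ψ ⬝ᵥ a) • k ∈ dichR ρ φ ω) ∨
          (∀ x, φ ⬝ᵥ x = 0 → ∃ r ∈ dichR ρ φ ω, ∃ c : F, x = r + c • k) := by
        intro k ψ hk hψ
        rcases star hy hφ ω k ψ hk hψ with h | h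
        · left
          rintro a ⟨ha, ha'⟩
          exact ⟨by rw [dotProduct_add, dotProduct_smul, ha, hk, smul_zero, add_zero], h a ha ha'⟩
        · right
          intro x hx
          obtain ⟨r, hr, hr', c, hc⟩ := h x hx
          exact ⟨r, ⟨hr, hr'⟩, c, hc⟩
      rcases la_main h3 hφ (dichR ρ φ ω) (fun a ha => ha.1) hne hst with h | h
      · exfalso
        obtain ⟨a, ha, ha', ha0⟩ := hcase ω
        exact ha0 (h a ⟨ha, ha'⟩)
      · rw [hQndef, hqdef]; exact h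
    have hfull : ∀ ω, (¬ ∃ a, φ ⬝ᵥ a = 0 ∧ a ∉ dichR ρ φ ω) → Nat.card (dichR ρ φ ω) = Qn := by
      intro ω hne
      push Not at hne
      rw [hQndef, ← card_kr hφ]
      apply Nat.card_congr
      apply Equiv.subtypeEquivRight
      intro a
      exact ⟨fun h => h.1, fun h => hne a h⟩
    have hle : ∀ ω ∈ (Finset.univ : Finset Ω), Qn ≤ q * Nat.card (dichR ρ φ ω) := by
      intro ω _
      by_cases hne : ∃ a, φ ⬝ᵥ a = 0 ∧ a ∉ dichR ρ φ ω
      · exact (hla ω hne).1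
      · rw [hfull ω hne]
        nlinarith
    have hsum : ∑ ω : Ω, Nat.card (dichR ρ φ ω) = Qn * (f + 1) := by
      rw [hQndef]
      exact sum_stab hy hφ
    have hm : Fintype.card Ω = f + Qn := by
      rw [← Nat.card_eq_fintype_card, hy.card, hQndef]
    have hsmall : f * (q - 1) + 1 < Qn := by
      rw [hqdef, hQndef]; exact hy.small
    have hsum2 : ∑ ω : Ω, q * Nat.card (dichR ρ φ ω) = q * (Qn * (f + 1)) := by
      rw [← Finset.mul_sum, hsum]
    have h1 := Finset.sum_le_sum hle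
    rw [Finset.sum_const, Finset.card_univ, hm, smul_eq_mul, hsum2] at h1
    have h2 : f + Qn ≤ q * (f + 1) := by
      have : Qn * (f + Qn) ≤ Qn * (q * (f + 1)) := by nlinarith
      exact Nat.le_of_mul_le_mul_left this hQpos
    obtain ⟨p, rfl⟩ : ∃ p, q = p + 1 := ⟨q - 1, by omega⟩
    have hmod : Qn ≡ 1 [MOD p] := by
      have h0 : p + 1 ≡ 1 [MOD p] := by
        have : p + 1 ≡ 0 + 1 [MOD p] := Nat.ModEq.add_right 1 (Nat.modEq_zero_iff_dvd.2 dvd_rfl)
        simpa using this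
      have := h0.pow (Fintype.card ι - 1)
      rw [one_pow, hqdef, ← hQndef] at this
      exact this
    obtain ⟨j, hj⟩ : ∃ j, Qn = 1 + p * j := by
      have := (Nat.modEq_iff_dvd' (by omega : 1 ≤ Qn)).1 hmod.symm
      obtain ⟨j, hj⟩ := this
      exact ⟨j, by omega⟩
    have hjf : j = f + 1 := by
      apply dich_arith (p := p) (by omega)
      · rw [← hj]; exact h2
      · rw [← hj]; simpa using hsmall
    have heq : ∑ ω : Ω, Qn = ∑ ω : Ω, (p + 1) * Nat.card (dichR ρ φ ω) := by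
      rw [Finset.sum_const, Finset.card_univ, hm, smul_eq_mul, hsum2, hj, hjf]
      ring
    have hall := (Finset.sum_eq_sum_iff_of_le hle).1 heq
    intro ω
    have hω := hall ω (Finset.mem_univ ω)
    have hne : ∃ a, φ ⬝ᵥ a = 0 ∧ a ∉ dichR ρ φ ω := by
      by_contra hne
      rw [hfull ω hne] at hω
      nlinarith
    have hstab := (hla ω hne).2 hω
    let W : Submodule F (ι → F) :=
      { (dichR ρ φ ω) with
        smul_mem' := fun c a ha => hstab c a ha }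
    have hmemW : ∀ a, a ∈ W ↔ a ∈ dichR ρ φ ω := fun a => Iff.rfl
    refine ⟨W, fun a ha => ((hmemW a).1 ha).1, ?_, ?_⟩
    · have hc : Nat.card W = Nat.card (dichR ρ φ ω) := rfl
      have hc2 : Nat.card W = Nat.card F ^ Module.finrank F W := Module.natCard_eq_pow_finrank
      rw [← hc, hc2, hQndef, hqdef, ← pow_succ'] at hω
      have := Nat.pow_right_injective (hqdef ▸ hq2) hω
      omega
    · intro a ha
      rw [hmemW, mem_dichR]
      exact ⟨fun h => ⟨ha, h⟩, fun h => h.2⟩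

end Cfsg.Agent.Lib.Helper5.MinIdx
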