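import Mathlib
import Cfsg.Agent.Lib.Helper5.MinIdx.Defs

set_option autoImplicit false

namespace Cfsg.Agent.Lib.Helper5.MinIdx

open Matrix
open Cfsg.Agent.Lib.Helper18.AutPSL

variable {ι : Type*} [Fintype ι] [DecidableEq ι] {F : Type*} [Field F] {Ω : Type*}

theorem fix_neg_iff (ρ : SpecialLinearGroup ι F →* Equiv.Perm Ω) (a φ : ι → F) (ω : Ω) :
    ρ (tr a (-φ)) ω = ω ↔ ρ (tr a φ) ω = ω := by
  rw [tr_neg_right, map_inv, Equiv.Perm.inv_eq_iff_eq, eq_comm]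

/-- RUNG DUAL (1). -/
theorem Hyp.dual {ρ : SpecialLinearGroup ι F →* Equiv.Perm Ω} {f : ℕ} (hy : Hyp ρ f) :
    Hyp (dl ρ) f := by
  refine ⟨fun a φ ha hφ h => ?_, hy.card, hy.small⟩
  rw [← hy.fix φ a hφ ha (by rw [dotProduct_comm]; exact h)]
  apply Nat.card_congr
  apply Equiv.subtypeEquivRight
  intro ω
  rw [dl_tr, fix_neg_iff]

/-- RUNG DUAL (2). -/
theorem allI'_of_dl {ρ : SpecialLinearGroup ι F →* Equiv.Perm Ω} (h : AllI (dl ρ)) : AllI' ρ := by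
  intro a ha φ ψ hφ h1 h2 ω hω
  have := h a ha φ ψ hφ (by rw [dotProduct_comm]; exact h1) (by rw [dotProduct_comm]; exact h2) ω
  rw [dl_tr, dl_tr, fix_neg_iff, fix_neg_iff] at this
  exact this hω

/-- RUNG DUAL (3). -/
theorem allII'_of_dl {ρ : SpecialLinearGroup ι F →* Equiv.Perm Ω} (h : AllII (dl ρ)) :
    AllII' ρ := by
  intro a ha ω
  obtain ⟨W, hW, hr, hW'⟩ := h a ha ω
  refine ⟨W, hW, hr, fun φ hφ => ?_⟩
  have := hW' φ (by rw [dotProduct_comm]; exact hφ)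
  rw [dl_tr, fix_neg_iff] at this
  exact this

end Cfsg.Agent.Lib.Helper5.MinIdx
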