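import Mathlib

set_option autoImplicit false

namespace Cfsg.Agent.Lib.Helper5.MinIdx

open scoped LinearAlgebra.Projectivization

/-- RUNG EXI: the stabiliser of a point of the projective space. -/
theorem exists_index {F : Type*} [Field F] [Fintype F] (n : ℕ) (hn : 2 ≤ n) :
    ∃ H : Subgroup (Matrix.ProjectiveSpecialLinearGroup (Fin n) F),
      H.index = (Fintype.card F ^ n - 1) / (Fintype.card F - 1) := by
  classical
  have hne : (Pi.single (⟨0, by omega⟩ : Fin n) (1 : F) : Fin n → F) ≠ 0 := by
    intro h
    have := congrFun h ⟨0, by omega⟩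
    simp at this
  let x : ℙ F (Fin n → F) := Projectivization.mk F _ hne
  refine ⟨MulAction.stabilizer (Matrix.ProjectiveSpecialLinearGroup (Fin n) F) x, ?_⟩
  have hpt : MulAction.IsPretransitive (Matrix.ProjectiveSpecialLinearGroup (Fin n) F)
      (ℙ F (Fin n → F)) := MulAction.IsPreprimitive.toIsPretransitive
  rw [MulAction.index_stabilizer, MulAction.orbit_eq_univ, Set.ncard_univ,
    Projectivization.card'', Nat.card_eq_fintype_card, Nat.card_eq_fintype_card]
  simp

end Cfsg.Agent.Lib.Helper5.MinIdx
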