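import Mathlib
import Cfsg.Agent.Lib.Helper5.MinIdx.Lin

set_option autoImplicit false

namespace Cfsg.Agent.Lib.Helper5.MinIdx

open Matrix
open Cfsg.Agent.Lib.Helper18.AutPSL

variable {ι : Type*} [Fintype ι] [DecidableEq ι] {F : Type*} [Field F] {Ω : Type*}

/-- RUNG F0 (1). -/
theorem f0 (h3 : 3 ≤ Fintype.card ι) {ρ : SpecialLinearGroup ι F →* Equiv.Perm Ω}
    (hI : AllI ρ) (hI' : AllI' ρ) (htr : ∀ ω ω' : Ω, ∃ g, ρ g ω = ω')
    (h1 : ∃ ω ω' : Ω, ω ≠ ω') :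
    ∀ a φ : ι → F, a ≠ 0 → φ ≠ 0 → φ ⬝ᵥ a = 0 → ∀ ω, ρ (tr a φ) ω ≠ ω := by
  intro a φ ha hφ hφa ω hfix
  haveI : Nontrivial ι := Fintype.one_lt_card_iff_nontrivial.1 (by omega)
  have hH : (MulAction.stabilizer (Equiv.Perm Ω) ω).comap ρ = ⊤ := by
    apply eq_top_of_tr
    intro a' φ' h'
    rw [Subgroup.mem_comap, MulAction.mem_stabilizer_iff]
    show ρ (tr a' φ') ω = ω
    by_cases hφ' : φ' = 0
    · rw [hφ', tr_zero_right, map_one]; rfl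
    obtain ⟨c, hc, hc1, hc2⟩ := exists_common_zero h3 φ φ'
    have e1 : ρ (tr c φ) ω = ω := hI φ hφ a c ha hφa hc1 ω hfix
    have e2 : ρ (tr c φ') ω = ω := hI' c hc φ φ' hφ hc1 hc2 ω e1
    exact hI φ' hφ' c a' hc hc2 h' ω e2
  have hall : ∀ g, ρ g ω = ω := by
    intro g
    have : g ∈ (MulAction.stabilizer (Equiv.Perm Ω) ω).comap ρ := by rw [hH]; trivial
    rw [Subgroup.mem_comap, MulAction.mem_stabilizer_iff] at this
    exact this
  obtain ⟨ω₁, ω₂, hne⟩ := h1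
  obtain ⟨g₁, hg₁⟩ := htr ω ω₁
  obtain ⟨g₂, hg₂⟩ := htr ω ω₂
  apply hne
  rw [← hg₁, ← hg₂, hall, hall]

/-- RUNG F0 (2). -/
theorem nr_of_f0 [Finite F] [Finite Ω] (h3 : 3 ≤ Fintype.card ι)
    {ρ : SpecialLinearGroup ι F →* Equiv.Perm Ω} {f : ℕ} (hy : Hyp ρ f)
    (h0 : ∀ a φ : ι → F, a ≠ 0 → φ ≠ 0 → φ ⬝ᵥ a = 0 → ∀ ω, ρ (tr a φ) ω ≠ ω) (ω : Ω) :
    NR ((MulAction.stabilizer (Equiv.Perm Ω) ω).comap ρ) := by
  constructor
  · intro a φ h hmem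
    rw [Subgroup.mem_comap, MulAction.mem_stabilizer_iff] at hmem
    by_contra hcon
    push Not at hcon
    exact h0 a φ hcon.1 hcon.2 h ω hmem
  · intro φ hφ g
    obtain ⟨a₀, ha₀, hφa₀, -⟩ := exists_common_zero h3 φ φ
    have hf0 : f = 0 := by
      rw [← hy.fix a₀ φ ha₀ hφ hφa₀]
      haveI : IsEmpty {ω // ρ (tr a₀ φ) ω = ω} := ⟨fun x => h0 a₀ φ ha₀ hφ hφa₀ x.1 x.2⟩
      exact Nat.card_of_isEmpty
    have hcard : Nat.card Ω = Nat.card (kr φ) := by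
      rw [hy.card, hf0, zero_add, card_kr hφ]
    let e : kr φ → Ω := fun a => ρ (tr a.1 φ) (ρ g ω)
    have hinj : Function.Injective e := by
      intro a b hab
      have hab' : ρ (tr a.1 φ) (ρ g ω) = ρ (tr b.1 φ) (ρ g ω) := hab
      have hz : φ ⬝ᵥ (-b.1 + a.1) = 0 := by
        rw [dotProduct_add, dotProduct_neg, (b.2 : φ ⬝ᵥ b.1 = 0), (a.2 : φ ⬝ᵥ a.1 = 0)]
        simp
      have hfix : ρ (tr (-b.1 + a.1) φ) (ρ g ω) = ρ g ω := by
        rw [tr_add_left (by rw [dotProduct_neg, (b.2 : φ ⬝ᵥ b.1 = 0), neg_zero]) a.2, tr_neg_left,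
          map_mul, map_inv, Equiv.Perm.mul_apply, hab']
        simp
      by_contra hne
      apply h0 (-b.1 + a.1) φ _ hφ hz _ hfix
      intro h
      apply hne
      apply Subtype.ext
      have : a.1 = b.1 := by
        have := neg_add_eq_zero.1 h
        exact this.symm
      exact this
    have hbij := hinj.bijective_of_nat_card_le (le_of_eq hcard)
    obtain ⟨a, ha⟩ := hbij.2 ω
    refine ⟨a.1, a.2, ?_⟩
    rw [Subgroup.mem_comap, MulAction.mem_stabilizer_iff, map_mul]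
    exact ha

end Cfsg.Agent.Lib.Helper5.MinIdx
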