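import Mathlib
import Cfsg.Agent.Lib.Helper5.MinIdx.Conj
import Cfsg.Agent.Lib.Helper5.MinIdx.Abs
import Cfsg.Agent.Lib.Helper5.MinIdx.Lin

set_option autoImplicit false

namespace Cfsg.Agent.Lib.Helper5.MinIdx

open Matrix
open Cfsg.Agent.Lib.Helper18.AutPSL

variable {ι : Type*} [Fintype ι] [DecidableEq ι] {F : Type*} [Field F] {Ω : Type*}

theorem fix_card_conj (ρ : SpecialLinearGroup ι F →* Equiv.Perm Ω) (g x : SpecialLinearGroup ι F) :
    Nat.card {ω // ρ (g * x * g⁻¹) ω = ω} = Nat.card {ω // ρ x ω = ω} := by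
  apply Nat.card_congr
  refine (Equiv.subtypeEquiv (ρ g) ?_).symm
  intro ω
  rw [map_mul, map_mul, map_inv, Equiv.Perm.mul_apply, Equiv.Perm.mul_apply]
  have : (ρ g)⁻¹ ((ρ g) ω) = ω := by simp
  rw [this, (ρ g).apply_eq_iff_eq]

theorem fix_arith {m f q Q : ℕ} (hq : 2 ≤ q) (hfm : f < m) (hd : Q ∣ m + (Q - 1) * f)
    (hQ : 0 < Q) (hs : m * (q - 1) + 1 < q * Q) : m = f + Q ∧ f * (q - 1) + 1 < Q := by
  obtain ⟨d, rfl⟩ : ∃ d, m = f + d := ⟨m - f, by omega⟩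
  have hd0 : 0 < d := by omega
  have e : f + d + (Q - 1) * f = d + Q * f := by
    obtain ⟨Q', rfl⟩ : ∃ Q', Q = Q' + 1 := ⟨Q - 1, by omega⟩
    simp only [Nat.add_sub_cancel]
    ring
  rw [e] at hd
  have hd' : Q ∣ d := (Nat.dvd_add_left (Dvd.intro _ rfl)).1 hd
  obtain ⟨c, rfl⟩ := hd'
  obtain ⟨r, rfl⟩ : ∃ r, q = r + 2 := ⟨q - 2, by omega⟩
  simp only [show r + 2 - 1 = r + 1 by omega] at hs ⊢
  have hc : c = 1 := by
    rcases c with _ | _ | c
    · simp at hd0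
    · rfl
    · exfalso
      have h5 : (r + 2) * Q ≤ (Q * 2) * (r + 1) := by nlinarith
      have h6 : (Q * 2) * (r + 1) ≤ (f + Q * (c + 1 + 1)) * (r + 1) := by
        apply Nat.mul_le_mul_right
        nlinarith
      omega
  subst hc
  refine ⟨by ring, ?_⟩
  nlinarith

/-- RUNG FIX. -/
theorem exists_hyp [Finite F] [Finite Ω] (h3 : 3 ≤ Fintype.card ι)
    (ρ : SpecialLinearGroup ι F →* Equiv.Perm Ω) (htr : ∀ ω ω' : Ω, ∃ g, ρ g ω = ω')
    (h1 : 1 < Nat.card Ω)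
    (hs : Nat.card Ω * (Nat.card F - 1) + 1 < Nat.card F ^ Fintype.card ι) : ∃ f, Hyp ρ f := by
  obtain ⟨i, j, _, hij, _, _⟩ := Fintype.two_lt_card_iff.1 h3
  have : Nontrivial ι := ⟨i, j, hij⟩
  set a₀ : ι → F := Pi.single i 1 with ha₀d
  set φ₀ : ι → F := Pi.single j 1 with hφ₀d
  have ha₀ : a₀ ≠ 0 := by
    intro h
    have := congrFun h i
    simp [ha₀d] at this
  have hφ₀ : φ₀ ≠ 0 := by
    intro h
    have := congrFun h j
    simp [hφ₀d] at this
  have h₀ : φ₀ ⬝ᵥ a₀ = 0 := by rw [hφ₀d, _root_.single_one_dotProduct]; simp [ha₀d, hij.symm]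
  set f := Nat.card {ω // ρ (tr a₀ φ₀) ω = ω} with hf
  have hfix : ∀ a φ : ι → F, a ≠ 0 → φ ≠ 0 → φ ⬝ᵥ a = 0 →
      Nat.card {ω // ρ (tr a φ) ω = ω} = f := by
    intro a φ ha hφ h
    obtain ⟨g, hg1, hg2⟩ := exists_conj h3 ha₀ hφ₀ h₀ ha hφ h
    rw [hf, ← fix_card_conj ρ g (tr a₀ φ₀), conj_tr, hg1, hg2]
  have hfle : f ≤ Nat.card Ω := Nat.card_le_card_of_injective _ Subtype.val_injective
  have hfm : f < Nat.card Ω := by
    refine lt_of_le_of_ne hfle fun heq => ?_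
    have hall : ∀ a φ : ι → F, φ ⬝ᵥ a = 0 → tr a φ ∈ ρ.ker := by
      intro a φ h
      by_cases ha : a = 0
      · rw [ha, tr_zero_left]; exact one_mem _
      by_cases hφ : φ = 0
      · rw [hφ, tr_zero_right]; exact one_mem _
      rw [MonoidHom.mem_ker]
      ext ω
      have hc := (hfix a φ ha hφ h).trans heq
      have hsurj : Function.Surjective
          (Subtype.val : {ω // ρ (tr a φ) ω = ω} → Ω) := by
        have hbij := (Nat.bijective_iff_injective_and_card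
          (Subtype.val : {ω // ρ (tr a φ) ω = ω} → Ω)).2 ⟨Subtype.val_injective, hc⟩
        exact hbij.2
      obtain ⟨⟨ω', hω'⟩, rfl⟩ := hsurj ω
      exact hω'
    have htop := eq_top_of_tr ρ.ker hall
    have : Nontrivial Ω := (Finite.one_lt_card_iff_nontrivial).1 h1
    obtain ⟨ω₀, ω₁, h01⟩ := exists_pair_ne Ω
    obtain ⟨g, hg⟩ := htr ω₀ ω₁
    have hgk : g ∈ ρ.ker := by rw [htop]; exact Subgroup.mem_top g
    rw [MonoidHom.mem_ker] at hgk
    rw [hgk] at hg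
    exact h01 hg
  have hcardQ : Nat.card (Multiplicative (kr φ₀)) = Nat.card F ^ (Fintype.card ι - 1) :=
    card_kr hφ₀
  have hdvd := abs_dvd (ρ.comp (trHom φ₀)) f (by
    intro x hx
    have hx0 : (Multiplicative.toAdd x).1 ≠ 0 := by
      intro h
      apply hx
      have : Multiplicative.toAdd x = 0 := Subtype.ext h
      exact this
    exact hfix _ _ hx0 hφ₀ (Multiplicative.toAdd x).2)
  rw [hcardQ] at hdvd
  have hq : 2 ≤ Nat.card F := Finite.one_lt_card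
  have hpow : Nat.card F ^ Fintype.card ι = Nat.card F * Nat.card F ^ (Fintype.card ι - 1) := by
    rw [← pow_succ']
    congr 1
    omega
  rw [hpow] at hs
  obtain ⟨e1, e2⟩ := fix_arith hq hfm hdvd (by positivity) hs
  exact ⟨f, hfix, e1, e2⟩

end Cfsg.Agent.Lib.Helper5.MinIdx
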