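import Mathlib
import Cfsg.Agent.Lib.Helper5.MinIdx.Lin

set_option autoImplicit false

namespace Cfsg.Agent.Lib.Helper5.MinIdx

open Matrix
open Cfsg.Agent.Lib.Helper18.AutPSL

variable {ι : Type*} [Fintype ι] [DecidableEq ι] {F : Type*} [Field F] {Ω : Type*}

/-- RUNG K21. -/
theorem k21 [Nonempty Ω] (h3 : 3 ≤ Fintype.card ι) {ρ : SpecialLinearGroup ι F →* Equiv.Perm Ω}
    (h2 : AllII ρ) (h1 : AllI' ρ) : False := by
  obtain ⟨ω⟩ := ‹Nonempty Ω›
  let P : (ι → F) → Prop := fun a => ∀ ψ : ι → F, ψ ⬝ᵥ a = 0 → ρ (tr a ψ) ω = ω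
  have key : ∀ φ : ι → F, φ ≠ 0 → ∃ W : Submodule F (ι → F), W ≤ kr φ ∧
      Module.finrank F W + 2 = Fintype.card ι ∧ ∀ a, φ ⬝ᵥ a = 0 → (P a ↔ a ∈ W) := by
    intro φ hφ
    obtain ⟨W, hW, hr, hfix⟩ := h2 φ hφ ω
    refine ⟨W, hW, hr, fun a ha => ⟨fun hP => (hfix a ha).1 (hP φ ha), fun haW ψ hψ => ?_⟩⟩
    by_cases ha0 : a = 0
    · rw [ha0, tr_zero_left, map_one]; rfl
    · exact h1 a ha0 φ ψ hφ ha hψ ω ((hfix a ha).2 haW)
  let U : Submodule F (ι → F) :=
    { carrier := {a | P a}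
      add_mem' := by
        intro a b ha hb
        obtain ⟨φ, hφ, h1', h2'⟩ := exists_common_zero h3 a b
        rw [dotProduct_comm] at h1' h2'
        obtain ⟨W, -, -, hW⟩ := key φ hφ
        have hab : φ ⬝ᵥ (a + b) = 0 := by rw [dotProduct_add, h1', h2', add_zero]
        exact (hW _ hab).2 (W.add_mem ((hW a h1').1 ha) ((hW b h2').1 hb))
      zero_mem' := by
        intro ψ _
        rw [tr_zero_left, map_one]; rfl
      smul_mem' := by
        intro c a ha
        obtain ⟨φ, hφ, h1', -⟩ := exists_common_zero h3 a a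
        rw [dotProduct_comm] at h1'
        obtain ⟨W, -, -, hW⟩ := key φ hφ
        have hab : φ ⬝ᵥ (c • a) = 0 := by rw [dotProduct_smul, h1', smul_zero]
        exact (hW _ hab).2 (W.smul_mem c ((hW a h1').1 ha)) }
  have hU : ∀ a, a ∈ U ↔ P a := fun a => Iff.rfl
  have hinf : ∀ φ : ι → F, φ ≠ 0 → Module.finrank F (U ⊓ kr φ : Submodule F (ι → F)) + 2 =
      Fintype.card ι := by
    intro φ hφ
    obtain ⟨W, hWk, hr, hW⟩ := key φ hφ
    have : U ⊓ kr φ = W := by
      ext a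
      rw [Submodule.mem_inf, hU, mem_kr]
      constructor
      · rintro ⟨h, h'⟩
        exact (hW a h').1 h
      · intro h
        exact ⟨(hW a (hWk h)).2 h, hWk h⟩
    rw [this, hr]
  by_cases hT : U = ⊤
  · obtain ⟨i⟩ : Nonempty ι := by
      rw [← Fintype.card_pos_iff]; omega
    have hφ : (Pi.single i 1 : ι → F) ≠ 0 := by
      intro h
      have := congrFun h i
      simp at this
    have e1 := hinf _ hφ
    rw [hT, top_inf_eq] at e1
    have e2 := finrank_kr hφ
    omega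
  · obtain ⟨φ₀, hφ₀, hle⟩ := exists_le_kr hT
    have e1 := hinf _ hφ₀
    rw [inf_eq_left.2 hle] at e1
    have hne : U ≠ ⊥ := by
      intro h
      rw [h, finrank_bot] at e1
      omega
    obtain ⟨u, hu, hu0⟩ := (Submodule.ne_bot_iff _).1 hne
    obtain ⟨i, hi⟩ := exists_ne_zero_entry hu0
    have hφ : (Pi.single i 1 : ι → F) ≠ 0 := by
      intro h
      have := congrFun h i
      simp at this
    have e2 := hinf _ hφ
    have e3 : U ⊓ kr (Pi.single i 1 : ι → F) = U :=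
      Submodule.eq_of_le_of_finrank_eq inf_le_left (by omega)
    have : u ∈ kr (Pi.single i 1 : ι → F) := by
      have : u ∈ U ⊓ kr (Pi.single i 1 : ι → F) := by rw [e3]; exact hu
      exact this.2
    rw [mem_kr, Cfsg.Agent.Lib.Helper18.AutPSL.single_one_dotProduct] at this
    exact hi this

end Cfsg.Agent.Lib.Helper5.MinIdx
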