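import Mathlib
import Cfsg.Agent.Lib.Helper5.MinIdx.Lin

set_option autoImplicit false

namespace Cfsg.Agent.Lib.Helper5.MinIdx

open Matrix
open Cfsg.Agent.Lib.Helper18.AutPSL

variable {ι : Type*} [Fintype ι] [DecidableEq ι] {F : Type*} [Field F] {Ω : Type*}

/-- RUNG K22. -/
theorem k22 [Nonempty Ω] (h3 : 3 ≤ Fintype.card ι) {ρ : SpecialLinearGroup ι F →* Equiv.Perm Ω}
    (h2 : AllII ρ) (h2' : AllII' ρ) : False := by
  obtain ⟨ω⟩ := ‹Nonempty Ω›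
  obtain ⟨i⟩ : Nonempty ι := by
    rw [← Fintype.card_pos_iff]; omega
  set ψ : ι → F := Pi.single i 1 with hψdef
  have hψ : ψ ≠ 0 := by
    intro h
    have := congrFun h i
    simp [hψdef] at this
  obtain ⟨W, hWk, hWr, hW⟩ := h2 ψ hψ ω
  have hkr := finrank_kr hψ
  have hlt : W < kr ψ := by
    refine lt_of_le_of_ne hWk ?_
    intro h
    rw [h] at hWr
    omega
  obtain ⟨a, hak, haW⟩ := SetLike.exists_of_lt hlt
  have ha0 : a ≠ 0 := by
    rintro rfl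
    exact haW W.zero_mem
  have hψa : ψ ⬝ᵥ a = 0 := hak
  obtain ⟨Γ, hΓk, hΓr, hΓ⟩ := h2' a ha0 ω
  have hΓa : ∀ φ ∈ Γ, φ ⬝ᵥ a = 0 := by
    intro φ hφ
    rw [dotProduct_comm]
    exact hΓk hφ
  -- the claim
  have claim : ∀ φ ∈ Γ, ∀ b ∈ W, φ ⬝ᵥ b = 0 := by
    intro φ hφ b hb
    by_contra hne
    have hφa := hΓa φ hφ
    have hψb : ψ ⬝ᵥ b = 0 := hWk hb
    have f1 : ρ (tr a φ) ω = ω := (hΓ φ hφa).2 hφ
    have f2 : ρ (tr b ψ) ω = ω := (hW b hψb).2 hb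
    have f1' : ρ (tr a φ)⁻¹ ω = ω := by
      rw [map_inv, Equiv.Perm.inv_eq_iff_eq]; exact f1.symm
    have f2' : ρ (tr b ψ)⁻¹ ω = ω := by
      rw [map_inv, Equiv.Perm.inv_eq_iff_eq]; exact f2.symm
    have f3 : ρ (tr ((φ ⬝ᵥ b) • a) ψ) ω = ω := by
      rw [← tr_comm hφa hψb hψa, map_mul, map_mul, map_mul]
      simp only [Equiv.Perm.mul_apply]
      rw [f2', f1', f2, f1]
    have h4 : ψ ⬝ᵥ ((φ ⬝ᵥ b) • a) = 0 := by rw [dotProduct_smul, hψa, smul_zero]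
    have h5 : (φ ⬝ᵥ b) • a ∈ W := (hW _ h4).1 f3
    apply haW
    have := W.smul_mem (φ ⬝ᵥ b)⁻¹ h5
    rwa [smul_smul, inv_mul_cancel₀ hne, one_smul] at this
  -- `kr ψ = W ⊔ span a`
  have hsup : W ⊔ Submodule.span F {a} = kr ψ := by
    have hle : W ⊔ Submodule.span F {a} ≤ kr ψ := by
      apply sup_le hWk
      rw [Submodule.span_singleton_le_iff_mem]
      exact hak
    apply Submodule.eq_of_le_of_finrank_le hle
    have hlt2 : W < W ⊔ Submodule.span F {a} := by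
      refine lt_of_le_of_ne le_sup_left ?_
      intro h
      apply haW
      rw [h]
      exact Submodule.mem_sup_right (Submodule.mem_span_singleton_self a)
    have := Submodule.finrank_lt_finrank_of_lt hlt2
    omega
  have hΓne : Γ ≠ ⊥ := by
    intro h
    rw [h, finrank_bot] at hΓr
    omega
  obtain ⟨γ, hγ, hγ0⟩ := (Submodule.ne_bot_iff _).1 hΓne
  have hvan : ∀ v, ψ ⬝ᵥ v = 0 → γ ⬝ᵥ v = 0 := by
    intro v hv
    have hv' : v ∈ W ⊔ Submodule.span F {a} := by rw [hsup]; exact hv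
    obtain ⟨w, hw, y, hy, rfl⟩ := Submodule.mem_sup.1 hv'
    obtain ⟨c, rfl⟩ := Submodule.mem_span_singleton.1 hy
    rw [dotProduct_add, claim γ hγ w hw, dotProduct_smul, hΓa γ hγ, smul_zero, add_zero]
  obtain ⟨c, hc⟩ := exists_smul_of_ker_le hvan
  have hc0 : c ≠ 0 := by
    rintro rfl
    apply hγ0
    rw [hc, zero_smul]
  have hψΓ : ψ ∈ Γ := by
    have := Γ.smul_mem c⁻¹ hγ
    rwa [hc, smul_smul, inv_mul_cancel₀ hc0, one_smul] at this
  exact haW ((hW a hψa).1 ((hΓ ψ hψa).2 hψΓ))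

end Cfsg.Agent.Lib.Helper5.MinIdx
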