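import Mathlib
import Cfsg.Agent.Lib.Helper5.MinIdx.Defs

set_option autoImplicit false

namespace Cfsg.Agent.Lib.Helper5.MinIdx

open Matrix
open Cfsg.Agent.Lib.Helper18.AutPSL

variable {ι : Type*} [Fintype ι] [DecidableEq ι] {F : Type*} [Field F] {Ω : Type*}

variable {H : Subgroup (SpecialLinearGroup ι F)} {v φ : ι → F}

/-- key identity -/
theorem tr_swap (hvφ : φ ⬝ᵥ v = 0) {ψ x : ι → F} (hψ : ψ ⬝ᵥ v = 0) :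
    tr v ψ * tr x φ = tr (x + (ψ ⬝ᵥ x) • v) φ * tr v ψ := by
  have e : tr v ψ * tr x φ * (tr v ψ)⁻¹ = tr (x + (ψ ⬝ᵥ x) • v) φ := by
    rw [conj_tr, tr_mulVec hψ, ← tr_neg_right, vecMul_tr (by rw [neg_dotProduct, hψ, neg_zero]),
      hvφ, zero_smul, add_zero]
  rw [← e, inv_mul_cancel_right]

/-- RUNG NRB (X). -/
theorem PP.exists (hH : NR H) (hφ : φ ≠ 0) (ψ : ι → F) : ∃ b, PP H v φ ψ b :=
  hH.reg φ hφ (tr v ψ)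

/-- RUNG NRB (U). -/
theorem PP.unique (hH : NR H) (hφ : φ ≠ 0) {ψ b b' : ι → F} (h : PP H v φ ψ b)
    (h' : PP H v φ ψ b') : b = b' := by
  have h1 : tr b φ * tr v ψ * (tr b' φ * tr v ψ)⁻¹ ∈ H := H.mul_mem h.2 (H.inv_mem h'.2)
  have h0 : φ ⬝ᵥ (-b') = 0 := by rw [dotProduct_neg, h'.1, neg_zero]
  have e : tr b φ * tr v ψ * (tr b' φ * tr v ψ)⁻¹ = tr (b + -b') φ := by
    rw [tr_add_left h.1 h0, tr_neg_left]
    group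
  rw [e] at h1
  rcases hH.no_tr _ _ (by rw [dotProduct_add, h.1, h0, add_zero]) h1 with h2 | h2
  · exact add_neg_eq_zero.1 h2
  · exact absurd h2 hφ

/-- RUNG NRB (N). -/
theorem PP.not_smul (hH : NR H) (hv : v ≠ 0) (hvφ : φ ⬝ᵥ v = 0) {ψ : ι → F} (hψ : ψ ⬝ᵥ v = 0)
    {c : F} (h : PP H v φ ψ (c • v)) : ψ = -(c • φ) := by
  have h1 := h.2
  have h0 : (c • φ) ⬝ᵥ v = 0 := by rw [smul_dotProduct, hvφ, smul_zero]
  rw [tr_smul, ← tr_add_right h0 hψ] at h1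
  rcases hH.no_tr _ _ (by rw [add_dotProduct, h0, hψ, add_zero]) h1 with h2 | h2
  · exact absurd h2 hv
  · exact eq_neg_of_add_eq_zero_right h2

/-- RUNG NRB (M). -/
theorem PP.mul (hvφ : φ ⬝ᵥ v = 0) {ψ ψ' b b' : ι → F} (hψ : ψ ⬝ᵥ v = 0) (hψ' : ψ' ⬝ᵥ v = 0)
    (h : PP H v φ ψ b) (h' : PP H v φ ψ' b') : PP H v φ (ψ + ψ') (b + b' + (ψ ⬝ᵥ b') • v) := by
  have h0 : φ ⬝ᵥ (b' + (ψ ⬝ᵥ b') • v) = 0 := by
    rw [dotProduct_add, h'.1, dotProduct_smul, hvφ, smul_zero, add_zero]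
  refine ⟨by rw [add_assoc, dotProduct_add, h.1, h0, add_zero], ?_⟩
  have h1 := H.mul_mem h.2 h'.2
  have e : tr b φ * tr v ψ * (tr b' φ * tr v ψ') =
      tr (b + b' + (ψ ⬝ᵥ b') • v) φ * tr v (ψ + ψ') := by
    rw [add_assoc, tr_add_left h.1 h0, tr_add_right hψ hψ', mul_assoc, ← mul_assoc (tr v ψ),
      tr_swap hvφ hψ]
    group
  rw [← e]
  exact h1

/-- RUNG NRB (E). -/
theorem PP.conj (hH : NR H) (hφ : φ ≠ 0) (hvφ : φ ⬝ᵥ v = 0) {ψ b : ι → F} (hψ : ψ ⬝ᵥ v = 0)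
    (h : PP H v φ ψ b) (g : SpecialLinearGroup ι F) {α β : F} (hg : g.1 *ᵥ v = α • v)
    (hg' : φ ᵥ* (g⁻¹).1 = β • φ) :
    ∃ μ : F, PP H v φ (α • (ψ ᵥ* (g⁻¹).1)) (β • (g.1 *ᵥ b) + μ • v) := by
  obtain ⟨c, hc, hcg⟩ := hH.reg φ hφ g
  set ψ' : ι → F := α • (ψ ᵥ* (g⁻¹).1) with hψ'
  -- `ψ' ⬝ᵥ v = 0`
  have hψv : (ψ ᵥ* (g⁻¹).1) ⬝ᵥ (α • v) = 0 := by rw [← hg, conj_dot', hψ]
  have hψ'v : ψ' ⬝ᵥ v = 0 := by
    rw [hψ', smul_dotProduct, ← dotProduct_smul]; exact hψv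
  -- `φ ⬝ᵥ (β • g b) = 0`
  have hgb : φ ⬝ᵥ (β • (g.1 *ᵥ b)) = 0 := by
    rw [dotProduct_smul, ← smul_dotProduct, ← hg', conj_dot', h.1]
  refine ⟨-(ψ' ⬝ᵥ c), ?_, ?_⟩
  · rw [dotProduct_add, hgb, dotProduct_smul, hvφ, smul_zero, add_zero]
  · have h1 : (tr c φ * g) * (tr b φ * tr v ψ) * (tr c φ * g)⁻¹ ∈ H :=
      H.mul_mem (H.mul_mem hcg h.2) (H.inv_mem hcg)
    have e1 : g * tr b φ * g⁻¹ = tr (β • (g.1 *ᵥ b)) φ := by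
      rw [conj_tr, hg', tr_smul]
    have e2 : g * tr v ψ * g⁻¹ = tr v ψ' := by
      rw [conj_tr, hg, tr_smul]
    have hnc : φ ⬝ᵥ (-c) = 0 := by rw [dotProduct_neg, hc, neg_zero]
    have e3 : tr v ψ' * (tr c φ)⁻¹ = tr (-c + (ψ' ⬝ᵥ (-c)) • v) φ * tr v ψ' := by
      rw [← tr_neg_left, tr_swap hvφ hψ'v]
    have h0 : φ ⬝ᵥ (-c + (ψ' ⬝ᵥ (-c)) • v) = 0 := by
      rw [dotProduct_add, hnc, dotProduct_smul, hvφ, smul_zero, add_zero]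
    have e : (tr c φ * g) * (tr b φ * tr v ψ) * (tr c φ * g)⁻¹ =
        tr (β • (g.1 *ᵥ b) + -(ψ' ⬝ᵥ c) • v) φ * tr v ψ' := by
      have : (tr c φ * g) * (tr b φ * tr v ψ) * (tr c φ * g)⁻¹ =
          tr c φ * (g * tr b φ * g⁻¹) * ((g * tr v ψ * g⁻¹) * (tr c φ)⁻¹) := by group
      rw [this, e1, e2, e3, ← mul_assoc, ← tr_add_left hc hgb,
        ← tr_add_left (by rw [dotProduct_add, hc, hgb, add_zero]) h0]
      congr 2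
      rw [dotProduct_neg]
      abel
    rw [← e]
    exact h1

end Cfsg.Agent.Lib.Helper5.MinIdx
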