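import Mathlib
import Cfsg.Agent.Lib.Helper5.MinIdx.NRB
import Cfsg.Agent.Lib.Helper5.MinIdx.Lin

set_option autoImplicit false
set_option linter.unusedSectionVars false

namespace Cfsg.Agent.Lib.Helper5.MinIdx

open Matrix
open Cfsg.Agent.Lib.Helper18.AutPSL

variable {ι : Type*} [Fintype ι] [DecidableEq ι] {F : Type*} [Field F] {Ω : Type*}

variable {H : Subgroup (SpecialLinearGroup ι F)} {v φ : ι → F}

/-- RUNG NRC (1): centraliser argument. -/
theorem PP.cent (hH : NR H) (hφ : φ ≠ 0) (hvφ : φ ⬝ᵥ v = 0) {ψ b : ι → F} (hψ : ψ ⬝ᵥ v = 0)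
    (h : PP H v φ ψ b) {k χ : ι → F} (h1 : χ ⬝ᵥ v = 0) (h2 : χ ⬝ᵥ k = 0) (h3 : φ ⬝ᵥ k = 0)
    (h4 : ψ ⬝ᵥ k = 0) : ∃ μ : F, (χ ⬝ᵥ b) • k = μ • v := by
  have hn : (-χ) ⬝ᵥ k = 0 := by rw [neg_dotProduct, h2, neg_zero]
  have e1 : (tr k χ).1 *ᵥ v = (1 : F) • v := by
    rw [tr_mulVec h2, h1, zero_smul, add_zero, one_smul]
  have e2 : φ ᵥ* ((tr k χ)⁻¹).1 = (1 : F) • φ := by
    rw [← tr_neg_right, vecMul_tr hn, h3, zero_smul, add_zero, one_smul]
  have e3 : ψ ᵥ* ((tr k χ)⁻¹).1 = ψ := by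
    rw [← tr_neg_right, vecMul_tr hn, h4, zero_smul, add_zero]
  obtain ⟨μ, hμ⟩ := PP.conj hH hφ hvφ hψ h (tr k χ) e1 e2
  rw [e3, one_smul, one_smul, tr_mulVec h2] at hμ
  have := PP.unique hH hφ h hμ
  refine ⟨-μ, ?_⟩
  have h5 : (χ ⬝ᵥ b) • k + μ • v = 0 := by
    have h6 : b + 0 = b + ((χ ⬝ᵥ b) • k + μ • v) := by rw [add_zero, ← add_assoc]; exact this
    exact (add_left_cancel h6).symm
  rw [neg_smul]
  exact eq_neg_of_add_eq_zero_left h5

/-- the intersection of two hyperplanes has codimension at most two -/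
theorem nrc_finrank_inf {φ ψ : ι → F} (hφ : φ ≠ 0) (hψ : ψ ≠ 0) :
    Fintype.card ι ≤ Module.finrank F (kr φ ⊓ kr ψ : Submodule F (ι → F)) + 2 := by
  have h1 := Submodule.finrank_sup_add_finrank_inf_eq (kr φ) (kr ψ)
  have h2 := finrank_kr hφ
  have h3 := finrank_kr hψ
  have h4 : Module.finrank F (kr φ ⊔ kr ψ : Submodule F (ι → F)) ≤ Fintype.card ι := by
    have := Submodule.finrank_le (kr φ ⊔ kr ψ : Submodule F (ι → F))
    rwa [Module.finrank_fintype_fun_eq_card] at this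
  omega

theorem nrc_exists_not_mem {U S : Submodule F (ι → F)}
    (h : Module.finrank F S < Module.finrank F U) : ∃ k ∈ U, k ∉ S := by
  by_contra hcon
  push Not at hcon
  have : U ≤ S := hcon
  have := Submodule.finrank_mono this
  omega

/-- RUNG NRC (2). -/
theorem PP.dot_eq_zero (h4 : 4 ≤ Fintype.card ι) (hH : NR H) (hv : v ≠ 0) (hφ : φ ≠ 0)
    (hvφ : φ ⬝ᵥ v = 0) {ψ b : ι → F} (hψ : ψ ⬝ᵥ v = 0) (h : PP H v φ ψ b) : ψ ⬝ᵥ b = 0 := by
  by_cases hψ0 : ψ = 0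
  · rw [hψ0, zero_dotProduct]
  by_contra hb
  have h1 := nrc_finrank_inf hφ hψ0
  have h2 : Module.finrank F (Submodule.span F {v}) < Module.finrank F (kr φ ⊓ kr ψ : Submodule F (ι → F)) := by
    rw [finrank_span_singleton hv]
    omega
  obtain ⟨k, hk, hkv⟩ := nrc_exists_not_mem h2
  obtain ⟨hk1, hk2⟩ := Submodule.mem_inf.1 hk
  rw [mem_kr] at hk1 hk2
  have h3 : ∀ c d : F, b ≠ c • v + d • k := by
    intro c d hcd
    apply hb
    rw [hcd, dotProduct_add, dotProduct_smul, dotProduct_smul, hψ, hk2, smul_zero, smul_zero,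
      add_zero]
  obtain ⟨χ, hχ1, hχ2, hχ3⟩ := exists_dual₂ h3 1
  obtain ⟨μ, hμ⟩ := PP.cent hH hφ hvφ hψ h hχ1 hχ2 hk1 hk2
  rw [hχ3, one_smul] at hμ
  exact hkv (hμ ▸ Submodule.smul_mem _ _ (Submodule.mem_span_singleton_self v))

theorem nrc_single_ne_zero (i : ι) : (Pi.single i (1 : F) : ι → F) ≠ 0 := by
  intro h
  have := congrFun h i
  simp at this

theorem nrc_single_dot {i j : ι} (hij : i ≠ j) :
    (Pi.single i (1 : F) : ι → F) ⬝ᵥ (Pi.single j (1 : F) : ι → F) = 0 := by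
  rw [_root_.single_one_dotProduct]
  simp [hij]

/-- `e_k` is not a multiple of `e_j` -/
theorem nrc_single_ne_smul {j k : ι} (hjk : j ≠ k) (c : F) :
    (Pi.single k (1 : F) : ι → F) ≠ -(c • (Pi.single j (1 : F) : ι → F)) := by
  intro h
  have := congrFun h k
  simp [hjk] at this

/-- RUNG NRC (3). -/
theorem nr_five (h5 : 5 ≤ Fintype.card ι) (hH : NR H) : False := by
  classical
  obtain ⟨i, j, k, hij, hik, hjk⟩ := Fintype.two_lt_card_iff.1 (by omega : 2 < Fintype.card ι)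
  obtain ⟨v, hvdef⟩ : ∃ v : ι → F, v = Pi.single i 1 := ⟨_, rfl⟩
  obtain ⟨φ, hφdef⟩ : ∃ φ : ι → F, φ = Pi.single j 1 := ⟨_, rfl⟩
  obtain ⟨ψ, hψdef⟩ : ∃ ψ : ι → F, ψ = Pi.single k 1 := ⟨_, rfl⟩
  have hv : v ≠ 0 := hvdef ▸ nrc_single_ne_zero i
  have hφ : φ ≠ 0 := hφdef ▸ nrc_single_ne_zero j
  have hψ0 : ψ ≠ 0 := hψdef ▸ nrc_single_ne_zero k
  have hvφ : φ ⬝ᵥ v = 0 := by rw [hvdef, hφdef]; exact nrc_single_dot hij.symm
  have hψ : ψ ⬝ᵥ v = 0 := by rw [hvdef, hψdef]; exact nrc_single_dot hik.symm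
  obtain ⟨b, hb⟩ := PP.exists (v := v) hH hφ ψ
  have hbv : ∀ c : F, b ≠ c • v := by
    intro c hc
    rw [hc] at hb
    have := PP.not_smul hH hv hvφ hψ hb
    rw [hψdef, hφdef] at this
    exact nrc_single_ne_smul hjk c this
  have h1 := nrc_finrank_inf hφ hψ0
  have h2 : Module.finrank F (Submodule.span F {v, b}) <
      Module.finrank F (kr φ ⊓ kr ψ : Submodule F (ι → F)) := by
    have : Module.finrank F (Submodule.span F ({v, b} : Set (ι → F))) ≤ 2 := by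
      have h := finrank_span_finset_le_card (R := F) ({v, b} : Finset (ι → F))
      have h' : ({v, b} : Finset (ι → F)).card ≤ 2 := Finset.card_le_two
      have e : (({v, b} : Finset (ι → F)) : Set (ι → F)) = {v, b} := by simp
      rw [e] at h
      exact h.trans h'
    omega
  obtain ⟨k', hk', hkv⟩ := nrc_exists_not_mem h2
  obtain ⟨hk1, hk2⟩ := Submodule.mem_inf.1 hk'
  rw [mem_kr] at hk1 hk2
  have hvS : v ∈ Submodule.span F ({v, b} : Set (ι → F)) := Submodule.subset_span (by simp)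
  have hbS : b ∈ Submodule.span F ({v, b} : Set (ι → F)) := Submodule.subset_span (by simp)
  have h3 : ∀ c d : F, b ≠ c • v + d • k' := by
    intro c d hcd
    by_cases hd : d = 0
    · rw [hd, zero_smul, add_zero] at hcd
      exact hbv c hcd
    · apply hkv
      have : k' = d⁻¹ • (b - c • v) := by
        rw [hcd, add_sub_cancel_left, smul_smul, inv_mul_cancel₀ hd, one_smul]
      rw [this]
      exact Submodule.smul_mem _ _ (Submodule.sub_mem _ hbS (Submodule.smul_mem _ _ hvS))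
  obtain ⟨χ, hχ1, hχ2, hχ3⟩ := exists_dual₂ h3 1
  obtain ⟨μ, hμ⟩ := PP.cent hH hφ hvφ hψ hb hχ1 hχ2 hk1 hk2
  rw [hχ3, one_smul] at hμ
  exact hkv (hμ ▸ Submodule.smul_mem _ _ hvS)

end Cfsg.Agent.Lib.Helper5.MinIdx
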