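import Mathlib
import Cfsg.Agent.Lib.Helper5.MinIdx.NRC

set_option autoImplicit false
set_option linter.unusedSectionVars false

namespace Cfsg.Agent.Lib.Helper5.MinIdx

open Matrix
open Cfsg.Agent.Lib.Helper18.AutPSL

variable {ι : Type*} [Fintype ι] [DecidableEq ι] {F : Type*} [Field F] {Ω : Type*}

variable {H : Subgroup (SpecialLinearGroup ι F)}

/-- RUNG NRS (1): characteristic not two, `n ≥ 4`. -/
theorem nr_four_odd (h4 : 4 ≤ Fintype.card ι) (h2 : (2 : F) ≠ 0) (hH : NR H) : False := by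
  obtain ⟨i, j, k, hij, hik, hjk⟩ := Fintype.two_lt_card_iff.1 (by omega : 2 < Fintype.card ι)
  obtain ⟨v, hvdef⟩ : ∃ v : ι → F, v = Pi.single i 1 := ⟨_, rfl⟩
  obtain ⟨φ, hφdef⟩ : ∃ φ : ι → F, φ = Pi.single j 1 := ⟨_, rfl⟩
  obtain ⟨ψ', hψdef⟩ : ∃ ψ : ι → F, ψ = Pi.single k 1 := ⟨_, rfl⟩
  have hv : v ≠ 0 := hvdef ▸ nrc_single_ne_zero i
  have hφ : φ ≠ 0 := hφdef ▸ nrc_single_ne_zero j
  have hvφ : φ ⬝ᵥ v = 0 := by rw [hvdef, hφdef]; exact nrc_single_dot hij.symm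
  have hψ' : ψ' ⬝ᵥ v = 0 := by rw [hvdef, hψdef]; exact nrc_single_dot hik.symm
  obtain ⟨b', hb'⟩ := PP.exists (v := v) hH hφ ψ'
  have hkey : ∀ ψ : ι → F, ψ ⬝ᵥ v = 0 → ψ ⬝ᵥ b' = 0 := by
    intro ψ hψ
    obtain ⟨b, hb⟩ := PP.exists (v := v) hH hφ ψ
    have m1 := PP.mul hvφ hψ hψ' hb hb'
    have m2 := PP.mul hvφ hψ' hψ hb' hb
    rw [add_comm ψ' ψ] at m2
    have hu := PP.unique hH hφ m1 m2
    have e1 : (ψ ⬝ᵥ b') • v = (ψ' ⬝ᵥ b) • v := by
      rw [add_comm b' b] at hu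
      exact add_left_cancel hu
    have e2 : ψ ⬝ᵥ b' = ψ' ⬝ᵥ b := by
      have := sub_eq_zero.2 e1
      rw [← sub_smul] at this
      rcases smul_eq_zero.1 this with h | h
      · exact sub_eq_zero.1 h
      · exact absurd h hv
    have d1 := PP.dot_eq_zero h4 hH hv hφ hvφ hψ hb
    have d2 := PP.dot_eq_zero h4 hH hv hφ hvφ hψ' hb'
    have d3 := PP.dot_eq_zero h4 hH hv hφ hvφ
      (by rw [add_dotProduct, hψ, hψ', add_zero] : (ψ + ψ') ⬝ᵥ v = 0) m1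
    rw [add_dotProduct, dotProduct_add, dotProduct_add, dotProduct_add, dotProduct_add,
      dotProduct_smul, dotProduct_smul, hψ, hψ', d1, d2, ← e2] at d3
    have d4 : (2 : F) * (ψ ⬝ᵥ b') = 0 := by
      have : (2 : F) * (ψ ⬝ᵥ b') = 0 + ψ ⬝ᵥ b' + (ψ ⬝ᵥ b') • (0 : F) +
          (ψ ⬝ᵥ b' + 0 + (ψ ⬝ᵥ b') • (0 : F)) := by
        rw [smul_zero]; ring
      rw [this, d3]
    rcases mul_eq_zero.1 d4 with h | h
    · exact absurd h h2
    · exact h
  have hbv : ∃ c : F, b' = c • v := by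
    by_contra hcon
    push Not at hcon
    obtain ⟨ψ, h1, h3⟩ := exists_dual hcon 1
    rw [hkey ψ h1] at h3
    exact zero_ne_one h3
  obtain ⟨c, hc⟩ := hbv
  rw [hc] at hb'
  have := PP.not_smul hH hv hvφ hψ' hb'
  rw [hψdef, hφdef] at this
  exact nrc_single_ne_smul hjk c this

/-- RUNG NRS (2): characteristic two, `n = 3`. -/
theorem nr_three_even (h3 : Fintype.card ι = 3) (h2 : (2 : F) = 0) (hH : NR H) : False := by
  obtain ⟨i, j, k, hij, hik, hjk⟩ := Fintype.two_lt_card_iff.1 (by omega : 2 < Fintype.card ι)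
  have hall : ∀ l : ι, l = i ∨ l = j ∨ l = k := by
    have hc : ({i, j, k} : Finset ι).card = 3 := Finset.card_eq_three.2 ⟨i, j, k, hij, hik, hjk, rfl⟩
    have hu : ({i, j, k} : Finset ι) = Finset.univ := Finset.eq_univ_of_card _ (by rw [hc, h3])
    intro l
    have := Finset.mem_univ l
    rw [← hu] at this
    simpa using this
  obtain ⟨v, hvdef⟩ : ∃ v : ι → F, v = Pi.single i 1 := ⟨_, rfl⟩
  obtain ⟨φ, hφdef⟩ : ∃ φ : ι → F, φ = Pi.single j 1 := ⟨_, rfl⟩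
  obtain ⟨ψ, hψdef⟩ : ∃ ψ : ι → F, ψ = Pi.single k 1 := ⟨_, rfl⟩
  have hv : v ≠ 0 := hvdef ▸ nrc_single_ne_zero i
  have hφ : φ ≠ 0 := hφdef ▸ nrc_single_ne_zero j
  have hvφ : φ ⬝ᵥ v = 0 := by rw [hvdef, hφdef]; exact nrc_single_dot hij.symm
  have hψ : ψ ⬝ᵥ v = 0 := by rw [hvdef, hψdef]; exact nrc_single_dot hik.symm
  obtain ⟨b, hb⟩ := PP.exists (v := v) hH hφ ψ
  have hdbl : ∀ x : ι → F, x + x = 0 := by
    intro x
    rw [← two_smul F x, h2, zero_smul]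
  have m1 := PP.mul hvφ hψ hψ hb hb
  rw [hdbl, hdbl, zero_add] at m1
  have n1 := PP.not_smul hH hv hvφ (by rw [zero_dotProduct] : (0 : ι → F) ⬝ᵥ v = 0) m1
  have hψb : ψ ⬝ᵥ b = 0 := by
    have : (ψ ⬝ᵥ b) • φ = 0 := by
      have := congrArg Neg.neg n1
      rw [neg_neg, neg_zero] at this
      exact this.symm
    rcases smul_eq_zero.1 this with h | h
    · exact h
    · exact absurd h hφ
  have hbj : b j = 0 := by
    have := hb.1
    rwa [hφdef, _root_.single_one_dotProduct] at this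
  have hbk : b k = 0 := by
    rwa [hψdef, _root_.single_one_dotProduct] at hψb
  have hbv : b = b i • v := by
    ext l
    rw [hvdef]
    rcases hall l with rfl | rfl | rfl
    · simp
    · simp [hbj, hij.symm]
    · simp [hbk, hik.symm]
  rw [hbv] at hb
  have := PP.not_smul hH hv hvφ hψ hb
  rw [hψdef, hφdef] at this
  exact nrc_single_ne_smul hjk _ this

end Cfsg.Agent.Lib.Helper5.MinIdx
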