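import Mathlib
import Cfsg.Agent.Lib.Helper5.MinIdx.NRB

set_option autoImplicit false

namespace Cfsg.Agent.Lib.Helper5.MinIdx

open Matrix
open Cfsg.Agent.Lib.Helper18.AutPSL

variable {ι : Type*} [Fintype ι] [DecidableEq ι] {F : Type*} [Field F] {Ω : Type*}

/-- a diagonal matrix of determinant one -/
def nrtDg (d : ι → F) (h : ∏ i, d i = 1) : SpecialLinearGroup ι F :=
  ⟨Matrix.diagonal d, by rw [Matrix.det_diagonal]; exact h⟩

theorem nrt_dg_val (d : ι → F) (h : ∏ i, d i = 1) : (nrtDg d h).1 = Matrix.diagonal d := rfl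

theorem nrt_dg_inv_val (d : ι → F) (h : ∏ i, d i = 1) :
    ((nrtDg d h)⁻¹).1 = Matrix.diagonal (fun i => (d i)⁻¹) := by
  have h' : ∏ i, (d i)⁻¹ = 1 := by rw [Finset.prod_inv_distrib, h, inv_one]
  have hne : ∀ i, d i ≠ 0 := by
    intro i hi
    have : ∏ i, d i = 0 := Finset.prod_eq_zero (Finset.mem_univ i) hi
    rw [h] at this
    exact one_ne_zero this
  have e : (nrtDg d h)⁻¹ = nrtDg (fun i => (d i)⁻¹) h' := by
    apply inv_eq_of_mul_eq_one_right
    apply Subtype.ext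
    show Matrix.diagonal d * Matrix.diagonal (fun i => (d i)⁻¹) = 1
    rw [Matrix.diagonal_mul_diagonal, ← Matrix.diagonal_one]
    congr 1
    funext i
    exact mul_inv_cancel₀ (hne i)
  rw [e, nrt_dg_val]

/-- RUNG NRT (torus). -/
theorem nr_torus (h3 : 3 ≤ Fintype.card ι) {H : Subgroup (SpecialLinearGroup ι F)} (hH : NR H)
    (ζ : F) (hζ : ζ ≠ 0) : ζ ^ Fintype.card ι = 1 := by
  obtain ⟨i₀, j₀, k₀, hij, hik, hjk⟩ := Fintype.two_lt_card_iff.1 h3
  set n := Fintype.card ι with hn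
  set v : ι → F := Pi.single i₀ 1 with hv
  set φ : ι → F := Pi.single j₀ 1 with hφd
  set ψ : ι → F := Pi.single k₀ 1 with hψd
  have hv0 : v ≠ 0 := by
    intro h
    have := congrFun h i₀
    simp [hv] at this
  have hφ0 : φ ≠ 0 := by
    intro h
    have := congrFun h j₀
    simp [hφd] at this
  have hvφ : φ ⬝ᵥ v = 0 := by
    rw [hφd, hv, _root_.single_one_dotProduct]
    simp [hij.symm]
  have hψv : ψ ⬝ᵥ v = 0 := by
    rw [hψd, hv, _root_.single_one_dotProduct]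
    simp [hik.symm]
  obtain ⟨b, hb⟩ := PP.exists (v := v) hH hφ0 ψ
  have hbj : b j₀ = 0 := by
    have := hb.1
    rwa [hφd, _root_.single_one_dotProduct] at this
  -- the diagonal element
  let d : ι → F := fun i => if i = j₀ then (ζ ^ (n - 1))⁻¹ else ζ
  have hd : ∏ i, d i = 1 := by
    rw [← Finset.mul_prod_erase Finset.univ d (Finset.mem_univ j₀)]
    have h1 : ∏ i ∈ Finset.univ.erase j₀, d i = ∏ i ∈ Finset.univ.erase j₀, ζ := by
      apply Finset.prod_congr rfl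
      intro i hi
      simp [d, Finset.ne_of_mem_erase hi]
    rw [h1, Finset.prod_const, Finset.card_erase_of_mem (Finset.mem_univ j₀), Finset.card_univ]
    simp only [d, if_true]
    exact inv_mul_cancel₀ (pow_ne_zero _ hζ)
  have hg1 : (nrtDg d hd).1 *ᵥ v = ζ • v := by
    funext i
    rw [nrt_dg_val, Matrix.mulVec_diagonal]
    by_cases hi : i = i₀
    · subst hi
      simp [d, hv, hij]
    · simp [hv, hi]
  have hg2 : φ ᵥ* ((nrtDg d hd)⁻¹).1 = (ζ ^ (n - 1)) • φ := by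
    funext i
    rw [nrt_dg_inv_val, Matrix.vecMul_diagonal]
    by_cases hi : i = j₀
    · subst hi
      simp [d, hφd]
    · simp [hφd, hi]
  have hg3 : ψ ᵥ* ((nrtDg d hd)⁻¹).1 = ζ⁻¹ • ψ := by
    funext i
    rw [nrt_dg_inv_val, Matrix.vecMul_diagonal]
    by_cases hi : i = k₀
    · subst hi
      simp [d, hψd, hjk.symm]
    · simp [hψd, hi]
  have hg4 : (nrtDg d hd).1 *ᵥ b = ζ • b := by
    funext i
    rw [nrt_dg_val, Matrix.mulVec_diagonal]
    by_cases hi : i = j₀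
    · subst hi
      simp [hbj]
    · simp [d, hi]
  obtain ⟨μ, hμ⟩ := PP.conj hH hφ0 hvφ hψv hb (nrtDg d hd) hg1 hg2
  rw [hg3, hg4, smul_smul, mul_inv_cancel₀ hζ, one_smul, smul_smul, ← pow_succ,
    Nat.sub_add_cancel (by omega : 1 ≤ n)] at hμ
  have hu := PP.unique hH hφ0 hb hμ
  by_contra hne
  have hne' : 1 - ζ ^ n ≠ 0 := sub_ne_zero.2 (Ne.symm hne)
  have hbv : b = ((1 - ζ ^ n)⁻¹ * μ) • v := by
    have h1 : (1 - ζ ^ n) • b = μ • v := by
      rw [sub_smul, one_smul, sub_eq_iff_eq_add, add_comm]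
      exact hu
    rw [← smul_smul, ← h1, smul_smul, inv_mul_cancel₀ hne', one_smul]
  rw [hbv] at hb
  have hN := PP.not_smul hH hv0 hvφ hψv hb
  have := congrFun hN k₀
  simp [hψd, hφd, hjk.symm] at this

end Cfsg.Agent.Lib.Helper5.MinIdx
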