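import Mathlib
import Cfsg.Agent.Lib.Helper5.MinIdx.Conj

set_option autoImplicit false

namespace Cfsg.Agent.Lib.Helper5.MinIdx

open Matrix
open Cfsg.Agent.Lib.Helper18.AutPSL

variable {ι : Type*} [Fintype ι] [DecidableEq ι] {F : Type*} [Field F] {Ω : Type*}

/-- RUNG UNIF. -/
theorem caseII_conj (h3 : 3 ≤ Fintype.card ι) {ρ : SpecialLinearGroup ι F →* Equiv.Perm Ω}
    {φ φ' : ι → F} (hφ : φ ≠ 0) (hφ' : φ' ≠ 0) (h : CaseII ρ φ) : CaseII ρ φ' := by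
  obtain ⟨a, ha, hφa, -⟩ := exists_common_zero h3 φ φ
  obtain ⟨a', ha', hφa', -⟩ := exists_common_zero h3 φ' φ'
  obtain ⟨g, -, hg⟩ := exists_conj h3 ha hφ hφa ha' hφ' hφa'
  intro ω
  obtain ⟨W, hWk, hWr, hW⟩ := h (ρ g⁻¹ ω)
  have hinj : Function.Injective (Matrix.mulVecLin g.1) := by
    intro x y hxy
    have hxy' : g.1 *ᵥ x = g.1 *ᵥ y := hxy
    have h5 : (g⁻¹).1 *ᵥ (g.1 *ᵥ x) = (g⁻¹).1 *ᵥ (g.1 *ᵥ y) := by rw [hxy']
    rw [Matrix.mulVec_mulVec, Matrix.mulVec_mulVec, inv_mul_val, Matrix.one_mulVec,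
      Matrix.one_mulVec] at h5
    exact h5
  refine ⟨W.map (Matrix.mulVecLin g.1), ?_, ?_, ?_⟩
  · rintro _ ⟨x, hx, rfl⟩
    rw [mem_kr, ← hg]
    show (φ ᵥ* (g⁻¹).1) ⬝ᵥ (g.1 *ᵥ x) = 0
    rw [conj_dot']
    exact hWk hx
  · rw [← (Submodule.equivMapOfInjective _ hinj W).finrank_eq, hWr]
  · intro b hb
    set x := (g⁻¹).1 *ᵥ b with hx
    have hgx : g.1 *ᵥ x = b := by
      rw [hx, Matrix.mulVec_mulVec, mul_inv_val, Matrix.one_mulVec]
    have hφx : φ ⬝ᵥ x = 0 := by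
      rw [hx, Matrix.dotProduct_mulVec, hg, hb]
    have hconj : tr b φ' = g * tr x φ * g⁻¹ := by
      rw [conj_tr, hgx, hg]
    have e1 : ρ (tr b φ') ω = ω ↔ ρ (tr x φ) (ρ g⁻¹ ω) = ρ g⁻¹ ω := by
      rw [hconj, map_mul, map_mul, Equiv.Perm.mul_apply, Equiv.Perm.mul_apply, map_inv]
      constructor
      · intro h1
        rw [Equiv.Perm.eq_inv_iff_eq]
        exact h1
      · intro h1
        rw [Equiv.Perm.eq_inv_iff_eq] at h1
        exact h1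
    rw [e1, hW x hφx]
    constructor
    · intro hxW
      exact ⟨x, hxW, hgx⟩
    · rintro ⟨y, hy, hyb⟩
      have : y = x := hinj (by rw [hyb]; exact hgx.symm)
      rw [← this]; exact hy

end Cfsg.Agent.Lib.Helper5.MinIdx
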