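import Mathlib
import Cfsg.Agent.Lib.Helper5.MinIdx.Fix
import Cfsg.Agent.Lib.Helper5.MinIdx.Dich
import Cfsg.Agent.Lib.Helper5.MinIdx.Unif
import Cfsg.Agent.Lib.Helper5.MinIdx.Dual
import Cfsg.Agent.Lib.Helper5.MinIdx.K21
import Cfsg.Agent.Lib.Helper5.MinIdx.K22
import Cfsg.Agent.Lib.Helper5.MinIdx.F0
import Cfsg.Agent.Lib.Helper5.MinIdx.NRT
import Cfsg.Agent.Lib.Helper5.MinIdx.NRS

set_option autoImplicit false

namespace Cfsg.Agent.Lib.Helper5.MinIdx

open Matrix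
open Cfsg.Agent.Lib.Helper18.AutPSL

variable {ι : Type*} [Fintype ι] [DecidableEq ι] {F : Type*} [Field F] {Ω : Type*}

theorem dich [Finite F] [Finite Ω] (h3 : 3 ≤ Fintype.card ι)
    {ρ : SpecialLinearGroup ι F →* Equiv.Perm Ω} {f : ℕ} (hy : Hyp ρ f) : AllI ρ ∨ AllII ρ := by
  by_cases h : ∃ φ : ι → F, φ ≠ 0 ∧ CaseII ρ φ
  · obtain ⟨φ, hφ, h2⟩ := h
    exact Or.inr fun φ' hφ' => caseII_conj h3 hφ hφ' h2
  · push Not at h
    exact Or.inl fun φ hφ => (dich_phi h3 hy hφ).resolve_right (h φ hφ)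

theorem no_reg (h3 : 3 ≤ Fintype.card ι)
    (hex : ¬ (Fintype.card ι = 4 ∧ ∀ x : F, x = 0 ∨ x = 1))
    {H : Subgroup (SpecialLinearGroup ι F)} (hH : NR H) : False := by
  rcases (by omega : Fintype.card ι = 3 ∨ Fintype.card ι = 4 ∨ 5 ≤ Fintype.card ι) with h | h | h
  · by_cases h2 : (2 : F) = 0
    · exact nr_three_even h h2 hH
    · have := nr_torus h3 hH (-1) (by simp)
      rw [h] at this
      apply h2
      linear_combination (-1 : F) * this
  · by_cases h2 : (2 : F) = 0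
    · apply hex ⟨h, fun x => ?_⟩
      by_cases hx : x = 0
      · exact Or.inl hx
      · right
        have := nr_torus h3 hH x hx
        rw [h] at this
        have h4 : (x - 1) ^ 4 = 0 := by
          linear_combination this + (-2 * x ^ 3 + 3 * x ^ 2 - 2 * x + 1) * h2
        exact sub_eq_zero.1 (pow_eq_zero_iff (by norm_num) |>.1 h4)
    · exact nr_four_odd (by omega) h2 hH
  · exact nr_five h hH

/-- no transitive permutation representation of `SL_n(q)` of degree `1 < m < (q^n-1)/(q-1)`. -/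
theorem no_small [Finite F] [Finite Ω] (h3 : 3 ≤ Fintype.card ι)
    (hex : ¬ (Fintype.card ι = 4 ∧ ∀ x : F, x = 0 ∨ x = 1))
    (ρ : SpecialLinearGroup ι F →* Equiv.Perm Ω) (htr : ∀ ω ω' : Ω, ∃ g, ρ g ω = ω')
    (h1 : 1 < Nat.card Ω)
    (hs : Nat.card Ω * (Nat.card F - 1) + 1 < Nat.card F ^ Fintype.card ι) : False := by
  obtain ⟨f, hy⟩ := exists_hyp h3 ρ htr h1 hs
  have hy' : Hyp (dl ρ) f := hy.dual
  have : Nontrivial Ω := (Finite.one_lt_card_iff_nontrivial).1 h1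
  obtain ⟨ω₀, ω₁, h01⟩ := exists_pair_ne Ω
  rcases dich h3 hy with hI | hII
  · rcases dich h3 hy' with hI' | hII'
    · have h0 := f0 h3 hI (allI'_of_dl hI') htr ⟨ω₀, ω₁, h01⟩
      exact no_reg h3 hex (nr_of_f0 h3 hy h0 ω₀)
    · refine k21 h3 hII' (allI'_of_dl ?_)
      rw [dl_dl]
      exact hI
  · rcases dich h3 hy' with hI' | hII'
    · exact k21 h3 hII (allI'_of_dl hI')
    · exact k22 h3 hII (allII'_of_dl hII')

theorem sl_index [Finite F] (h3 : 3 ≤ Fintype.card ι)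
    (hex : ¬ (Fintype.card ι = 4 ∧ ∀ x : F, x = 0 ∨ x = 1))
    (H : Subgroup (SpecialLinearGroup ι F)) (hH : H ≠ ⊤) :
    Nat.card F ^ Fintype.card ι ≤ H.index * (Nat.card F - 1) + 1 := by
  by_contra hlt
  push Not at hlt
  have : Finite (SpecialLinearGroup ι F) := Subtype.finite
  refine no_small (Ω := SpecialLinearGroup ι F ⧸ H) h3 hex
    (MulAction.toPermHom (SpecialLinearGroup ι F) (SpecialLinearGroup ι F ⧸ H)) ?_ ?_ ?_
  · intro ω ω'
    obtain ⟨g, hg⟩ := MulAction.exists_smul_eq (SpecialLinearGroup ι F) ω ω'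
    exact ⟨g, hg⟩
  · have : H.index ≠ 1 := fun h => hH (Subgroup.index_eq_one.1 h)
    have h0 : H.index ≠ 0 := Subgroup.index_ne_zero_of_finite
    show 1 < H.index
    omega
  · exact hlt

end Cfsg.Agent.Lib.Helper5.MinIdx
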